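import Mathlib
import Cfsg.Agent.Clifford.Basic
import Cfsg.Agent.CharBasics.Central

/-!
Sylow subgroups `P` with `C(x) = C(P)` for all `x ∈ P#`: the projection of `C(P)` to `P`,
conjugation by the normalizer, and the TI property.
-/

namespace CfsgLib.StrongSylow

universe u

variable {G : Type u} [Group G]

/-- A Sylow subgroup with uniform centralizers, with the projection of its centralizer onto it. -/
structure Setting (G : Type u) [Group G] where
  P : Subgroup G
  strong : ∀ x ∈ P, x ≠ 1 →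
    Subgroup.centralizer ({x} : Set G) = Subgroup.centralizer (P : Set G)
  le_cent : P ≤ Subgroup.centralizer (P : Set G)
  proj : ↥(Subgroup.centralizer (P : Set G)) →* ↥P
  k : ℕ
  proj_pow : ∀ c, (proj c : G) = (c : G) ^ k
  proj_fix : ∀ y : P, proj ⟨(y : G), le_cent y.2⟩ = y

namespace Setting

variable (S : Setting G)

abbrev C : Subgroup G := Subgroup.centralizer (S.P : Set G)

abbrev N : Subgroup G := Subgroup.normalizer (S.P : Set G)

/-- Inclusion of `P` into its centralizer. -/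
def incl : ↥S.P →* ↥S.C := Subgroup.inclusion S.le_cent

theorem coe_incl (y : S.P) : (S.incl y : G) = y := rfl

theorem proj_incl (y : S.P) : S.proj (S.incl y) = y := S.proj_fix y

theorem incl_central (y : S.P) : S.incl y ∈ Subgroup.center S.C := by
  rw [Subgroup.mem_center_iff]
  intro c
  exact Subtype.ext ((Subgroup.mem_centralizer_iff.mp c.2) (y : G) y.2).symm

theorem comm_P (a b : S.P) : a * b = b * a :=
  Subtype.ext ((Subgroup.mem_centralizer_iff.mp (S.le_cent b.2)) (a : G) a.2)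

theorem proj_surjective : Function.Surjective S.proj := fun y => ⟨S.incl y, S.proj_incl y⟩

theorem mem_C_of_commute {y : G} (hy : y ∈ S.P) (h1 : y ≠ 1) {z : G} (h : y * z = z * y) :
    z ∈ S.C := by
  show z ∈ Subgroup.centralizer (S.P : Set G)
  rw [← S.strong y hy h1, Subgroup.mem_centralizer_iff]
  intro w hw
  rw [Set.mem_singleton_iff] at hw
  rw [hw]; exact h

theorem conj_pow' (x c : G) (n : ℕ) : x⁻¹ * c ^ n * x = (x⁻¹ * c * x) ^ n := by
  have := conj_pow (i := n) (a := x⁻¹) (b := c)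
  rw [inv_inv] at this
  exact this.symm

theorem conj_mem_P {c : S.C} (hc : S.proj c ≠ 1) {x : G} (h : x⁻¹ * c * x ∈ S.C)
    {w : G} (hw : w ∈ S.P) : x⁻¹ * w * x ∈ S.P := by
  have hy : x⁻¹ * (S.proj c : G) * x = (S.proj ⟨_, h⟩ : G) := by
    rw [S.proj_pow, S.proj_pow, conj_pow']
  have hy1 : (S.proj ⟨_, h⟩ : G) ≠ 1 := by
    rw [← hy]
    intro h1
    apply hc
    apply Subtype.ext
    have : (S.proj c : G) = x * (x⁻¹ * (S.proj c : G) * x) * x⁻¹ := by group
    rw [this, h1]; simp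
  have hwC : x⁻¹ * w * x ∈ S.C := by
    refine S.mem_C_of_commute (S.proj ⟨_, h⟩).2 hy1 ?_
    rw [← hy]
    have hcomm : (S.proj c : G) * w = w * (S.proj c : G) :=
      congrArg Subtype.val (S.comm_P (S.proj c) ⟨w, hw⟩)
    calc x⁻¹ * (S.proj c : G) * x * (x⁻¹ * w * x) = x⁻¹ * ((S.proj c : G) * w) * x := by group
      _ = _ := by rw [hcomm]; group
  have : (S.proj ⟨_, hwC⟩ : G) = x⁻¹ * w * x := by
    rw [S.proj_pow, ← conj_pow']
    have h2 : w ^ S.k = w := by
      have := congrArg Subtype.val (S.proj_incl ⟨w, hw⟩)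
      rwa [S.proj_pow] at this
    rw [h2]
  rw [← this]
  exact (S.proj _).2

/-- The TI property. -/
theorem mem_N_of_conj {c : S.C} (hc : S.proj c ≠ 1) {x : G} (h : x⁻¹ * c * x ∈ S.C) :
    x ∈ S.N := by
  rw [Subgroup.mem_normalizer_iff'']
  intro w
  refine ⟨fun hw => S.conj_mem_P hc h hw, fun hw => ?_⟩
  have hc' : S.proj ⟨_, h⟩ ≠ 1 := by
    intro h1
    apply hc
    apply Subtype.ext
    have h2 := congrArg Subtype.val h1
    rw [S.proj_pow, ← conj_pow', ← S.proj_pow] at h2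
    have : (S.proj c : G) = x * (x⁻¹ * (S.proj c : G) * x) * x⁻¹ := by group
    rw [this, h2]; simp
  have h3 : x⁻¹⁻¹ * (x⁻¹ * (c : G) * x) * x⁻¹ ∈ S.C := by
    have : x⁻¹⁻¹ * (x⁻¹ * (c : G) * x) * x⁻¹ = (c : G) := by group
    rw [this]; exact c.2
  have := S.conj_mem_P (c := ⟨_, h⟩) hc' h3 hw
  have h4 : x⁻¹⁻¹ * (x⁻¹ * w * x) * x⁻¹ = w := by group
  rwa [h4] at this

theorem C_le_N : S.C ≤ S.N := by
  intro x hx
  rw [Subgroup.mem_normalizer_iff'']
  intro w
  constructor
  · intro hw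
    have h : w * x = x * w := (Subgroup.mem_centralizer_iff.mp hx) w hw
    rwa [mul_assoc, h, inv_mul_cancel_left]
  · intro hw
    have h : (x⁻¹ * w * x) * x = x * (x⁻¹ * w * x) := (Subgroup.mem_centralizer_iff.mp hx) _ hw
    have h2 : w = x⁻¹ * w * x := by
      have h3 : x * (x⁻¹ * w * x) = w * x := by group
      rw [h3] at h
      exact (mul_right_cancel h).symm
    rwa [← h2] at hw

theorem conj_mem_C {x : G} (hx : x ∈ S.N) {z : G} (hz : z ∈ S.C) : x⁻¹ * z * x ∈ S.C := by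
  rw [Subgroup.mem_centralizer_iff]
  intro w hw
  have hw' : x * w * x⁻¹ ∈ S.P := (Subgroup.mem_normalizer_iff.mp hx w).mp hw
  have h : (x * w * x⁻¹) * z = z * (x * w * x⁻¹) := (Subgroup.mem_centralizer_iff.mp hz) _ hw'
  calc w * (x⁻¹ * z * x) = x⁻¹ * ((x * w * x⁻¹) * z) * x := by group
    _ = _ := by rw [h]; group

open scoped Classical in
/-- Conjugation by `x`, meaningful for `x` in the normalizer. -/
noncomputable def cj (x : G) (c : S.C) : S.C :=
  if h : x⁻¹ * (c : G) * x ∈ S.C then ⟨_, h⟩ else c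

theorem coe_cj {x : G} (hx : x ∈ S.N) (c : S.C) : (S.cj x c : G) = x⁻¹ * c * x := by
  rw [cj, dif_pos (S.conj_mem_C hx c.2)]

theorem cj_one (c : S.C) : S.cj 1 c = c :=
  Subtype.ext (by rw [S.coe_cj S.N.one_mem]; simp)

theorem cj_mul {x y : G} (hx : x ∈ S.N) (hy : y ∈ S.N) (c : S.C) :
    S.cj (x * y) c = S.cj y (S.cj x c) :=
  Subtype.ext (by rw [S.coe_cj (S.N.mul_mem hx hy), S.coe_cj hy, S.coe_cj hx]; group)

theorem cj_inv_left {x : G} (hx : x ∈ S.N) (c : S.C) : S.cj x⁻¹ (S.cj x c) = c := by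
  rw [← S.cj_mul hx (S.N.inv_mem hx), mul_inv_cancel, S.cj_one]

theorem cj_inv_right {x : G} (hx : x ∈ S.N) (c : S.C) : S.cj x (S.cj x⁻¹ c) = c := by
  rw [← S.cj_mul (S.N.inv_mem hx) hx, inv_mul_cancel, S.cj_one]

/-- Conjugation as an automorphism of `C`. -/
noncomputable def cjEquiv {x : G} (hx : x ∈ S.N) : S.C ≃* S.C where
  toFun := S.cj x
  invFun := S.cj x⁻¹
  left_inv := S.cj_inv_left hx
  right_inv := S.cj_inv_right hx
  map_mul' a b := Subtype.ext (by
    rw [Subgroup.coe_mul, S.coe_cj hx, S.coe_cj hx, S.coe_cj hx, Subgroup.coe_mul]; group)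

theorem cjEquiv_apply {x : G} (hx : x ∈ S.N) (c : S.C) : S.cjEquiv hx c = S.cj x c := rfl

theorem cj_of_mem_C {x : G} (hx : x ∈ S.C) (c : S.C) :
    S.cj x c = (⟨x, hx⟩ : S.C)⁻¹ * c * ⟨x, hx⟩ :=
  Subtype.ext (by rw [S.coe_cj (S.C_le_N hx)]; rfl)

theorem proj_cj {x : G} (hx : x ∈ S.N) (c : S.C) :
    (S.proj (S.cj x c) : G) = x⁻¹ * (S.proj c : G) * x := by
  rw [S.proj_pow, S.coe_cj hx, S.proj_pow, conj_pow']

theorem proj_cj_eq_one {x : G} (hx : x ∈ S.N) (c : S.C) :
    S.proj (S.cj x c) = 1 ↔ S.proj c = 1 := by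
  rw [← Subtype.coe_inj, ← Subtype.coe_inj, S.proj_cj hx, OneMemClass.coe_one]
  constructor
  · intro h
    have : (S.proj c : G) = x * (x⁻¹ * (S.proj c : G) * x) * x⁻¹ := by group
    rw [this, h]; simp
  · intro h; rw [h]; simp

/-- An element of `N` fixing a nonidentity element of `P` centralizes `P`. -/
theorem mem_C_of_fixed {x : G} (y : S.P) (hy : y ≠ 1) (h : x⁻¹ * (y : G) * x = y) :
    x ∈ S.C := by
  refine S.mem_C_of_commute y.2 (fun h1 => hy (Subtype.ext h1)) ?_
  calc (y : G) * x = x * (x⁻¹ * (y : G) * x) := by group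
    _ = _ := by rw [h]

/-- For `x ∈ N \ C` the map `y ↦ y⁻¹ y^x` of `P` is onto. -/
theorem commutator_surjective [Finite G] {x : G} (hx : x ∈ S.N) (hxC : x ∉ S.C) (z : S.P) :
    ∃ y : S.P, z = y⁻¹ * ⟨x⁻¹ * y * x, (Subgroup.mem_normalizer_iff''.mp hx y).mp y.2⟩ := by
  let δ : S.P → S.P := fun y =>
    y⁻¹ * ⟨x⁻¹ * y * x, (Subgroup.mem_normalizer_iff''.mp hx y).mp y.2⟩
  have hinj : Function.Injective δ := by
    intro a b hab
    by_contra hne
    have h1 : (a : G)⁻¹ * (x⁻¹ * a * x) = (b : G)⁻¹ * (x⁻¹ * b * x) := congrArg Subtype.val hab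
    have hba : b * a⁻¹ ≠ 1 := fun h => hne (mul_inv_eq_one.mp h).symm
    refine hxC (S.mem_C_of_fixed (b * a⁻¹) hba ?_)
    rw [Subgroup.coe_mul, Subgroup.coe_inv]
    calc x⁻¹ * ((b : G) * (a : G)⁻¹) * x
        = (b : G) * ((b : G)⁻¹ * (x⁻¹ * b * x)) * (x⁻¹ * a * x)⁻¹ := by group
      _ = _ := by rw [← h1]; group
  obtain ⟨y, hy⟩ := Finite.injective_iff_surjective.mp hinj z
  exact ⟨y, hy.symm⟩

/-- Index of the centralizer in the normalizer. -/
noncomputable def e : ℕ := Nat.card S.N / Nat.card S.C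

theorem e_mul [Finite G] : S.e * Nat.card S.C = Nat.card S.N :=
  Nat.div_mul_cancel (Subgroup.card_dvd_of_le S.C_le_N)

theorem e_pos [Finite G] : 0 < S.e :=
  Nat.div_pos (Subgroup.card_le_of_le S.C_le_N) Nat.card_pos

theorem N_le_C [Finite G] (he : S.e = 1) : S.N ≤ S.C := by
  have h := S.e_mul
  rw [he, one_mul] at h
  exact (Subgroup.eq_of_le_of_card_ge S.C_le_N h.ge).ge

theorem card_ker [Finite G] : Nat.card S.proj.ker * Nat.card S.P = Nat.card S.C := by
  have h := Subgroup.index_ker S.proj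
  have h2 := Subgroup.card_mul_index S.proj.ker
  rw [h, MonoidHom.range_eq_top.mpr S.proj_surjective, Subgroup.card_top] at h2
  exact h2

end Setting

/-- A Sylow subgroup with uniform centralizers gives a setting. -/
theorem exists_setting [Finite G] {p : ℕ} [Fact p.Prime] (P : Sylow p G)
    (hstar : ∀ x ∈ (P : Subgroup G), x ≠ 1 →
      Subgroup.centralizer ({x} : Set G) = Subgroup.centralizer ((P : Subgroup G) : Set G)) :
    ∃ S : Setting G, S.P = (P : Subgroup G) := by
  classical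
  have hle : (P : Subgroup G) ≤ Subgroup.centralizer ((P : Subgroup G) : Set G) := by
    intro x hx
    by_cases h1 : x = 1
    · subst h1; exact Subgroup.one_mem _
    · rw [← hstar x hx h1, Subgroup.mem_centralizer_iff]
      intro w hw
      rw [Set.mem_singleton_iff] at hw
      rw [hw]
  set C := Subgroup.centralizer ((P : Subgroup G) : Set G) with hC
  set H : Subgroup C := (P : Subgroup G).subgroupOf C with hH
  have hcen : H ≤ Subgroup.center C := by
    intro y hy
    rw [Subgroup.mem_center_iff]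
    intro c
    exact Subtype.ext ((Subgroup.mem_centralizer_iff.mp c.2) (y : G) (Subgroup.mem_subgroupOf.mp hy)).symm
  haveI hnorm : H.Normal := ⟨fun y hy c => by
    have := Subgroup.mem_center_iff.mp (hcen hy) c
    rwa [this, mul_inv_cancel_right]⟩
  have hcardH : Nat.card H = Nat.card (P : Subgroup G) :=
    Nat.card_congr (Subgroup.subgroupOfEquivOfLe hle).toEquiv
  have hcop : Nat.Coprime H.index (Nat.card (P : Subgroup G)) := by
    have h1 : ¬ p ∣ H.index := fun h => P.not_dvd_index (h.trans (Subgroup.relIndex_dvd_index_of_le hle))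
    obtain ⟨m, hm⟩ := IsPGroup.iff_card.mp P.isPGroup'
    rw [hm]
    exact ((Fact.out : p.Prime).coprime_iff_not_dvd.mpr h1).symm.pow_right m
  haveI : H.FiniteIndex := inferInstance
  letI : CommGroup H := { H.toGroup with
    mul_comm := fun a b => Subtype.ext (Subgroup.mem_center_iff.mp (hcen b.2) a) }
  have key : ∀ c : C, ∀ (k : ℕ) (g₀ : C), g₀⁻¹ * c ^ k * g₀ ∈ H → g₀⁻¹ * c ^ k * g₀ = c ^ k := by
    intro c k g₀ h
    have h2 := Subgroup.mem_center_iff.mp (hcen h) g₀
    calc g₀⁻¹ * c ^ k * g₀ = (g₀ * (g₀⁻¹ * c ^ k * g₀)) * g₀⁻¹ := by rw [h2, mul_inv_cancel_right]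
      _ = c ^ k := by group
  obtain ⟨t, -, ht⟩ : ∃ t, t < Nat.card (P : Subgroup G) + 2 ∧
      (H.index * t) % Nat.card (P : Subgroup G) = 1 % Nat.card (P : Subgroup G) := by
    rcases Nat.lt_or_ge 1 (Nat.card (P : Subgroup G)) with h | h
    · obtain ⟨t, h1, h2⟩ := Nat.exists_mul_mod_eq_one_of_coprime hcop h
      exact ⟨t, by omega, by rw [h2, Nat.mod_eq_of_lt h]⟩
    · exact ⟨0, by omega, by
        have : Nat.card (P : Subgroup G) = 1 := le_antisymm h Nat.card_pos
        rw [this, Nat.mod_one, Nat.mod_one]⟩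
  have hmem : ∀ c : C, c ^ (H.index * t) ∈ H := fun c => by
    rw [pow_mul]; exact H.pow_mem (H.pow_index_mem c) t
  let f0 : C →* H := MonoidHom.transfer (MonoidHom.id H)
  have hf0 : ∀ c, (f0 c : C) = c ^ H.index := fun c => by
    rw [show f0 c = _ from MonoidHom.transfer_eq_pow (MonoidHom.id H) c (key c)]; rfl
  have hmul : ∀ a b : C, (a * b) ^ (H.index * t) = a ^ (H.index * t) * b ^ (H.index * t) := by
    intro a b
    rw [pow_mul, pow_mul, pow_mul, ← hf0, ← hf0, ← hf0, map_mul, Subgroup.coe_mul]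
    exact Commute.mul_pow (Subgroup.mem_center_iff.mp (hcen (f0 b).2) _) t
  refine ⟨⟨(P : Subgroup G), hstar, hle,
    { toFun := fun c => ⟨((c ^ (H.index * t) : C) : G), Subgroup.mem_subgroupOf.mp (hmem c)⟩
      map_one' := Subtype.ext (by simp)
      map_mul' := fun a b => Subtype.ext (by
        have h := congrArg Subtype.val (hmul a b)
        rw [Subgroup.coe_mul] at h ⊢
        exact h) },
    H.index * t, fun c => SubmonoidClass.coe_pow c _, fun y => Subtype.ext ?_⟩, rfl⟩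
  show (((⟨(y : G), hle y.2⟩ : C) ^ (H.index * t) : C) : G) = y
  rw [SubmonoidClass.coe_pow]
  show (y : G) ^ (H.index * t) = y
  rw [← pow_mod_orderOf]
  have hd : orderOf (y : G) ∣ Nat.card (P : Subgroup G) := Subgroup.orderOf_dvd_natCard _ y.2
  have hm : H.index * t ≡ 1 [MOD orderOf (y : G)] := Nat.ModEq.of_dvd hd ht
  rw [hm, pow_mod_orderOf, pow_one]

end CfsgLib.StrongSylow
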