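import Mathlib
import Cfsg.Agent.Clifford.StrongSylow.Setup
import Cfsg.Agent.CharBasics.Induced
import Cfsg.Agent.IndFun.Basic

/-!
Characters of `C = C(P)`, their twists by characters of `P`, and induction of class functions
vanishing on the normal `p`-complement of `C`.
-/

set_option linter.unusedSectionVars false

namespace CfsgLib.StrongSylow

universe u

open scoped ComplexConjugate

/-- Multiplicity of the irreducible `σ` in the character `Φ`. -/
noncomputable def mult {K : Type u} [Group K] [Fintype K] (Φ : K → ℂ) (σ : Cfsg.IrrCharacter K) : ℕ :=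
  ⌊(Cfsg.classInner Φ (σ : K → ℂ)).re⌋₊

section General

variable {K : Type u} [Group K] [Fintype K]

theorem mult_spec {Φ : K → ℂ} (h : Cfsg.IsCharacter K Φ) (σ : Cfsg.IrrCharacter K) :
    Cfsg.classInner Φ (σ : K → ℂ) = (mult Φ σ : ℂ) := by
  obtain ⟨m, hm⟩ := CfsgLib.CharBasics.classInner_character_nat h σ
  rw [mult, hm, Complex.natCast_re, Nat.floor_natCast]

theorem mult_irr [DecidableEq (Cfsg.IrrCharacter K)] (χ σ : Cfsg.IrrCharacter K) :
    mult (χ : K → ℂ) σ = if χ = σ then 1 else 0 := by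
  rw [mult, CfsgLib.CharBasics.classInner_irr]
  split <;> simp

theorem expand [Fintype (Cfsg.IrrCharacter K)] {Φ : K → ℂ} (h : Cfsg.IsCharacter K Φ) (k : K) :
    Φ k = ∑ σ : Cfsg.IrrCharacter K, (mult Φ σ : ℂ) * (σ : K → ℂ) k := by
  conv_lhs => rw [CfsgLib.CharBasics.classFun_expand (CfsgLib.CharBasics.isClassFunction h)]
  simp only [Finset.sum_apply, Pi.smul_apply, smul_eq_mul, mult_spec h]

theorem degree_sum [Fintype (Cfsg.IrrCharacter K)] {Φ : K → ℂ} (h : Cfsg.IsCharacter K Φ) :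
    ∑ σ : Cfsg.IrrCharacter K, mult Φ σ * Cfsg.charDegree (σ : K → ℂ) = Cfsg.charDegree Φ := by
  have := expand h 1
  rw [CfsgLib.CharBasics.apply_one h, Finset.sum_congr rfl
    (fun (σ : Cfsg.IrrCharacter K) _ => by
      rw [CfsgLib.CharBasics.apply_one (CfsgLib.CharBasics.isCharacter_of_irr σ.2)])] at this
  exact_mod_cast this.symm

theorem classInner_eq_sum_mult [Fintype (Cfsg.IrrCharacter K)] (Ψ : K → ℂ) {Φ : K → ℂ}
    (h : Cfsg.IsCharacter K Φ) :
    Cfsg.classInner Ψ Φ =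
      ∑ σ : Cfsg.IrrCharacter K, Cfsg.classInner Ψ (σ : K → ℂ) * (mult Φ σ : ℂ) := by
  conv_lhs => rw [CfsgLib.CharBasics.classFun_expand (CfsgLib.CharBasics.isClassFunction h)]
  rw [CfsgLib.CharBasics.classInner_sum_right]
  refine Finset.sum_congr rfl fun σ _ => ?_
  rw [CfsgLib.CharBasics.classInner_comm (Cfsg.classInner Φ (σ : K → ℂ) • (σ : K → ℂ)) Ψ,
    CfsgLib.CharBasics.classInner_smul_left, map_mul,
    ← CfsgLib.CharBasics.classInner_comm (σ : K → ℂ) Ψ, mult_spec h, Complex.conj_natCast,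
    mul_comm]

theorem classInner_sum_sq [Fintype (Cfsg.IrrCharacter K)] {Φ : K → ℂ}
    (h : Cfsg.IsCharacter K Φ) :
    Cfsg.classInner Φ Φ = ((∑ σ : Cfsg.IrrCharacter K, mult Φ σ * mult Φ σ : ℕ) : ℂ) := by
  rw [classInner_eq_sum_mult Φ h]
  push_cast
  exact Finset.sum_congr rfl fun σ _ => by rw [mult_spec h]

end General

namespace Setting

variable {G : Type u} [Group G] [Fintype G] (S : Setting G)

noncomputable instance fintypeC : Fintype S.C := Fintype.ofFinite _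

noncomputable instance fintypeP : Fintype S.P := Fintype.ofFinite _

/-- The irreducible characters of `C`. -/
abbrev Ir : Type u := Cfsg.IrrCharacter S.C

noncomputable instance fintypeIr : Fintype S.Ir := Fintype.ofFinite _

noncomputable instance decIr : DecidableEq S.Ir := Classical.decEq _

open scoped Classical in
/-- The elements of the normalizer. -/
noncomputable def nF : Finset G := Finset.univ.filter (fun x => x ∈ S.N)

theorem mem_nF {x : G} : x ∈ S.nF ↔ x ∈ S.N := by simp [nF]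

theorem card_nF : S.nF.card = S.e * Nat.card S.C := by
  classical
  rw [S.e_mul, Nat.card_eq_fintype_card, Fintype.card_subtype]
  rfl

/-- The sum of the conjugates under `N/C`. -/
noncomputable def conjSum (f : S.C → ℂ) (c : S.C) : ℂ :=
  (Nat.card S.C : ℂ)⁻¹ * ∑ x ∈ S.nF, f (S.cj x c)

theorem conjSum_sub (f g : S.C → ℂ) : S.conjSum (f - g) = S.conjSum f - S.conjSum g := by
  funext c
  simp [conjSum, Finset.sum_sub_distrib, mul_sub]

/-- Invariance under conjugation by the normalizer. -/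
def Invariant (f : S.C → ℂ) : Prop := ∀ x ∈ S.N, ∀ c, f (S.cj x c) = f c

theorem conjSum_of_invariant {f : S.C → ℂ} (h : S.Invariant f) :
    S.conjSum f = (S.e : ℂ) • f := by
  funext c
  rw [conjSum, Finset.sum_congr rfl (fun x hx => h x (S.mem_nF.mp hx) c), Finset.sum_const,
    nsmul_eq_mul, S.card_nF, Pi.smul_apply, smul_eq_mul]
  push_cast
  have : (Nat.card S.C : ℂ) ≠ 0 := Nat.cast_ne_zero.mpr Nat.card_pos.ne'
  field_simp

theorem invariant_conjSum (f : S.C → ℂ) : S.Invariant (S.conjSum f) := by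
  intro y hy c
  rw [conjSum, conjSum]
  congr 1
  refine Finset.sum_bij' (fun x _ => y * x) (fun x _ => y⁻¹ * x) (fun x hx => ?_) (fun x hx => ?_)
    (fun x _ => inv_mul_cancel_left y x) (fun x _ => mul_inv_cancel_left y x) (fun x hx => ?_)
  · exact S.mem_nF.mpr (S.N.mul_mem hy (S.mem_nF.mp hx))
  · exact S.mem_nF.mpr (S.N.mul_mem (S.N.inv_mem hy) (S.mem_nF.mp hx))
  · rw [S.cj_mul hy (S.mem_nF.mp hx)]

theorem invariant_restrict {F : G → ℂ} (hF : Cfsg.IsClassFunction G F) :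
    S.Invariant (fun c : S.C => F c) := by
  intro x hx c
  have := hF (c : G) x⁻¹
  rw [inv_inv] at this
  show F (S.cj x c : G) = F c
  rw [S.coe_cj hx, this]

theorem classInner_comp_cj {x : G} (hx : x ∈ S.N) (f φ : S.C → ℂ) :
    Cfsg.classInner (fun c => f (S.cj x c)) (fun c => φ (S.cj x c)) = Cfsg.classInner f φ := by
  rw [CfsgLib.CharBasics.classInner_eq, CfsgLib.CharBasics.classInner_eq]
  congr 1
  exact (S.cjEquiv hx).toEquiv.sum_comp (fun c => f c * conj (φ c))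

theorem classInner_conjSum_left (f φ : S.C → ℂ) :
    Cfsg.classInner (S.conjSum f) φ =
      (Nat.card S.C : ℂ)⁻¹ * ∑ x ∈ S.nF, Cfsg.classInner (fun c => f (S.cj x c)) φ := by
  simp only [CfsgLib.CharBasics.classInner_eq, conjSum, Finset.mul_sum, Finset.sum_mul]
  rw [Finset.sum_comm]
  exact Finset.sum_congr rfl fun x _ => Finset.sum_congr rfl fun c _ => by ring

theorem classInner_conjSum_invariant (f : S.C → ℂ) {φ : S.C → ℂ} (hφ : S.Invariant φ) :
    Cfsg.classInner (S.conjSum f) φ = (S.e : ℂ) * Cfsg.classInner f φ := by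
  rw [classInner_conjSum_left, Finset.sum_congr rfl (g := fun _ => Cfsg.classInner f φ)
    (fun x hx => ?_), Finset.sum_const, nsmul_eq_mul, S.card_nF]
  · push_cast
    have : (Nat.card S.C : ℂ) ≠ 0 := Nat.cast_ne_zero.mpr Nat.card_pos.ne'
    field_simp
  · conv_rhs => rw [← S.classInner_comp_cj (S.mem_nF.mp hx)]
    congr 1
    funext c
    exact (hφ x (S.mem_nF.mp hx) c).symm

/-- `f` vanishes on the `p`-complement of `C`. -/
def VanA (f : S.C → ℂ) : Prop := ∀ c, S.proj c = 1 → f c = 0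

theorem extendByZero_zero {f : S.C → ℂ} (hf : S.VanA f) {g : G}
    (hg : ∀ c : S.C, S.proj c ≠ 1 → ∀ x : G, x⁻¹ * g * x ≠ c) (x : G) :
    Cfsg.extendByZero S.C f (x⁻¹ * g * x) = 0 := by
  by_cases h : x⁻¹ * g * x ∈ S.C
  · rw [CfsgLib.IndFun.extendByZero_mem _ h]
    refine hf _ ?_
    by_contra h1
    exact hg ⟨_, h⟩ h1 x rfl
  · exact CfsgLib.IndFun.extendByZero_not_mem _ h

/-- An induced function lives on the conjugates of `C ∖ A`. -/
theorem ind_zero {f : S.C → ℂ} (hf : S.VanA f) {g : G}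
    (hg : ∀ c : S.C, S.proj c ≠ 1 → ∀ x : G, x⁻¹ * g * x ≠ c) :
    Cfsg.indFun S.C f g = 0 := by
  simp only [Cfsg.indFun, S.extendByZero_zero hf hg, Finset.sum_const_zero, mul_zero]

theorem ind_one {f : S.C → ℂ} (hf : S.VanA f) : Cfsg.indFun S.C f 1 = 0 := by
  rw [CfsgLib.CharBasics.indFun_apply_one, hf 1 (map_one _), mul_zero]

/-- The restriction of an induced function. -/
theorem ind_restrict {f : S.C → ℂ} (hf : S.VanA f) (c : S.C) :
    Cfsg.indFun S.C f c = S.conjSum f c := by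
  classical
  simp only [Cfsg.indFun, conjSum]
  congr 1
  rw [← Finset.sum_subset (Finset.subset_univ S.nF) (fun x _ hx => ?_)]
  · refine Finset.sum_congr rfl fun x hx => ?_
    rw [CfsgLib.IndFun.extendByZero_mem _ (S.conj_mem_C (S.mem_nF.mp hx) c.2)]
    exact congrArg f (Subtype.ext (S.coe_cj (S.mem_nF.mp hx) c).symm)
  · by_cases h : x⁻¹ * (c : G) * x ∈ S.C
    · rw [CfsgLib.IndFun.extendByZero_mem _ h]
      refine hf _ ?_
      by_contra h1
      refine hx (S.mem_nF.mpr (S.mem_N_of_conj (c := c) (fun h0 => h1 (Subtype.ext ?_)) h))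
      have hp : (c : G) ^ S.k = 1 := by rw [← S.proj_pow, h0]; rfl
      rw [S.proj_pow, OneMemClass.coe_one]
      show (x⁻¹ * (c : G) * x) ^ S.k = 1
      rw [← conj_pow', hp]; simp
    · exact CfsgLib.IndFun.extendByZero_not_mem _ h

theorem classInner_ind (f : S.C → ℂ) {η : G → ℂ} (hη : Cfsg.IsClassFunction G η) :
    Cfsg.classInner (Cfsg.indFun S.C f) η = Cfsg.classInner f (fun c : S.C => η c) :=
  CfsgLib.CharBasics.classInner_indFun S.C f hη

theorem classInner_ind_ind (f : S.C → ℂ) {g : S.C → ℂ} (hg : S.VanA g) :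
    Cfsg.classInner (Cfsg.indFun S.C f) (Cfsg.indFun S.C g) =
      Cfsg.classInner f (S.conjSum g) := by
  rw [S.classInner_ind f (CfsgLib.CharBasics.isClassFunction_indFun _ _)]
  exact congrArg _ (funext (S.ind_restrict hg))

/-- Linear characters of `P`. -/
abbrev Tw : Type u := ↥S.P →* ℂˣ

/-- A linear character of `P` inflated to `C`. -/
noncomputable def twHom (μ : S.Tw) : S.C →* ℂ := (Units.coeHom ℂ).comp (μ.comp S.proj)

theorem twHom_apply (μ : S.Tw) (c : S.C) : S.twHom μ c = (μ (S.proj c) : ℂ) := rfl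

/-- Twist of an irreducible character. -/
noncomputable def twist (μ : S.Tw) (ρ : S.Ir) : S.Ir :=
  ⟨fun c => S.twHom μ c * ρ.1 c, CfsgLib.Clifford.isIrrCharacter_linear_mul ρ.2 (S.twHom μ)⟩

theorem twist_apply (μ : S.Tw) (ρ : S.Ir) (c : S.C) :
    (S.twist μ ρ).1 c = (μ (S.proj c) : ℂ) * ρ.1 c := rfl

theorem twist_one (ρ : S.Ir) : S.twist 1 ρ = ρ :=
  Subtype.ext (funext fun c => by simp [twist_apply])

theorem twist_mul (μ μ' : S.Tw) (ρ : S.Ir) : S.twist (μ * μ') ρ = S.twist μ (S.twist μ' ρ) :=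
  Subtype.ext (funext fun c => by simp [twist_apply, mul_assoc])

theorem center_val (ρ : S.Ir) (y : S.P) (c : S.C) :
    ρ.1 (S.incl y * c) = ρ.1 (S.incl y) / ρ.1 1 * ρ.1 c := by
  have h := CfsgLib.CharBasics.center_mul ρ.2 (S.incl_central y) c
  have h0 := CfsgLib.CharBasics.apply_one_ne_zero ρ.2
  field_simp
  linear_combination h

/-- The linear character of `P` under an irreducible character of `C`. -/
noncomputable def cc (ρ : S.Ir) : S.Tw :=
  MonoidHom.toHomUnits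
    { toFun := fun y => ρ.1 (S.incl y) / ρ.1 1
      map_one' := by rw [map_one, div_self (CfsgLib.CharBasics.apply_one_ne_zero ρ.2)]
      map_mul' := fun a b => by rw [map_mul, S.center_val ρ a]; ring }

theorem cc_val (ρ : S.Ir) (y : S.P) : (S.cc ρ y : ℂ) = ρ.1 (S.incl y) / ρ.1 1 := rfl

theorem apply_incl_mul (ρ : S.Ir) (y : S.P) (c : S.C) :
    ρ.1 (S.incl y * c) = (S.cc ρ y : ℂ) * ρ.1 c := S.center_val ρ y c

theorem cc_twist (μ : S.Tw) (ρ : S.Ir) : S.cc (S.twist μ ρ) = μ * S.cc ρ := by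
  refine MonoidHom.ext fun y => Units.ext ?_
  rw [MonoidHom.mul_apply, Units.val_mul, cc_val, cc_val, twist_apply, twist_apply, S.proj_incl,
    map_one, map_one, Units.val_one, one_mul, mul_div_assoc]

/-- The twist of `ρ` trivial on `P`. -/
noncomputable def tp (ρ : S.Ir) : S.Ir := S.twist (S.cc ρ)⁻¹ ρ

theorem cc_tp (ρ : S.Ir) : S.cc (S.tp ρ) = 1 := by rw [tp, cc_twist]; exact inv_mul_cancel (S.cc ρ)

theorem twist_cc_tp (ρ : S.Ir) : S.twist (S.cc ρ) (S.tp ρ) = ρ := by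
  rw [tp, ← twist_mul, show S.cc ρ * (S.cc ρ)⁻¹ = 1 from mul_inv_cancel (S.cc ρ), twist_one]

theorem tp_twist (μ : S.Tw) (ρ : S.Ir) : S.tp (S.twist μ ρ) = S.tp ρ := by
  rw [tp, tp, cc_twist, ← twist_mul]
  congr 1
  refine MonoidHom.ext fun y => ?_
  simp [mul_comm, mul_left_comm]

theorem tp_apply (ρ : S.Ir) (c : S.C) :
    (S.tp ρ).1 c = ρ.1 (S.incl (S.proj c)⁻¹ * c) := by
  rw [tp, twist_apply, S.apply_incl_mul, MonoidHom.inv_apply, map_inv]

theorem twist_injective (ρ : S.Ir) : Function.Injective (fun μ : S.Tw => S.twist μ ρ) := by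
  intro a b h
  have h1 := congrArg S.cc h
  simp only [cc_twist] at h1
  exact mul_right_cancel h1

open scoped Classical in
/-- Conjugate of an irreducible character of `C`. -/
noncomputable def cjI (x : G) (ρ : S.Ir) : S.Ir :=
  if hx : x ∈ S.N then
    ⟨fun c => ρ.1 (S.cjEquiv hx c), CfsgLib.CharBasics.irr_comp_of_surjective ρ.2
      (S.cjEquiv hx).toMonoidHom (S.cjEquiv hx).surjective⟩
  else ρ

theorem cjI_apply {x : G} (hx : x ∈ S.N) (ρ : S.Ir) (c : S.C) :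
    (S.cjI x ρ).1 c = ρ.1 (S.cj x c) := by
  rw [cjI, dif_pos hx]; rfl

theorem cjI_mul {x y : G} (hx : x ∈ S.N) (hy : y ∈ S.N) (ρ : S.Ir) :
    S.cjI (x * y) ρ = S.cjI x (S.cjI y ρ) :=
  Subtype.ext (funext fun c => by
    rw [S.cjI_apply (S.N.mul_mem hx hy), S.cjI_apply hx, S.cjI_apply hy, S.cj_mul hx hy])

theorem cjI_of_mem_C {x : G} (hx : x ∈ S.C) (ρ : S.Ir) : S.cjI x ρ = ρ :=
  Subtype.ext (funext fun c => by
    rw [S.cjI_apply (S.C_le_N hx), S.cj_of_mem_C hx,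
      CfsgLib.CharBasics.apply_conj' (CfsgLib.CharBasics.isCharacter_of_irr ρ.2)])

theorem cjI_one (ρ : S.Ir) : S.cjI 1 ρ = ρ := S.cjI_of_mem_C S.C.one_mem ρ

theorem cjI_inv {x : G} (hx : x ∈ S.N) (ρ : S.Ir) : S.cjI x⁻¹ (S.cjI x ρ) = ρ := by
  rw [← S.cjI_mul (S.N.inv_mem hx) hx, inv_mul_cancel, S.cjI_one]

theorem deg_cjI (x : G) (ρ : S.Ir) :
    Cfsg.charDegree (S.cjI x ρ).1 = Cfsg.charDegree ρ.1 := by
  by_cases hx : x ∈ S.N
  · rw [Cfsg.charDegree, Cfsg.charDegree, S.cjI_apply hx]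
    rw [show S.cj x (1 : S.C) = 1 from map_one (S.cjEquiv hx)]
  · rw [cjI, dif_neg hx]

theorem cjI_incl {x : G} (hx : x ∈ S.N) (y : S.P) :
    S.cj x (S.incl y) =
      S.incl ⟨x⁻¹ * y * x, (Subgroup.mem_normalizer_iff''.mp hx y).mp y.2⟩ :=
  Subtype.ext (S.coe_cj hx _)

theorem cc_cjI {x : G} (hx : x ∈ S.N) (ρ : S.Ir) (y : S.P) :
    S.cc (S.cjI x ρ) y =
      S.cc ρ ⟨x⁻¹ * y * x, (Subgroup.mem_normalizer_iff''.mp hx y).mp y.2⟩ := by
  refine Units.ext ?_
  rw [cc_val, cc_val, S.cjI_apply hx, S.cjI_apply hx, S.cjI_incl hx,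
    show S.cj x (1 : S.C) = 1 from map_one (S.cjEquiv hx)]

/-- `P` is not in the kernel. -/
def NT (ρ : S.Ir) : Prop := S.cc ρ ≠ 1

theorem cc_cjI_eq_one {x : G} (hx : x ∈ S.N) {ρ : S.Ir} (h : S.cc ρ = 1) :
    S.cc (S.cjI x ρ) = 1 := by
  refine MonoidHom.ext fun y => ?_
  rw [S.cc_cjI hx, h]; rfl

theorem nt_cjI {x : G} (hx : x ∈ S.N) {ρ : S.Ir} (h : S.NT ρ) : S.NT (S.cjI x ρ) := by
  intro h1
  apply h
  have := S.cc_cjI_eq_one (S.N.inv_mem hx) h1
  rwa [S.cjI_inv hx] at this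

theorem tp_cjI {x : G} (hx : x ∈ S.N) (ρ : S.Ir) : S.tp (S.cjI x ρ) = S.cjI x (S.tp ρ) := by
  refine Subtype.ext (funext fun c => ?_)
  rw [S.cjI_apply hx, S.tp_apply, S.tp_apply, S.cjI_apply hx]
  refine congrArg ρ.1 (Subtype.ext ?_)
  rw [S.coe_cj hx, Subgroup.coe_mul, Subgroup.coe_mul, coe_incl, coe_incl, Subgroup.coe_inv,
    Subgroup.coe_inv, S.proj_cj hx, S.coe_cj hx]
  group

/-- The stabilizer of a character nontrivial on `P` is `C`. -/
theorem mem_C_of_cjI_eq {x : G} (hx : x ∈ S.N) {ρ : S.Ir} (hρ : S.NT ρ)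
    (h : S.cjI x ρ = ρ) : x ∈ S.C := by
  by_contra hxC
  refine hρ (MonoidHom.ext fun z => ?_)
  obtain ⟨y, rfl⟩ := S.commutator_surjective hx hxC z
  rw [map_mul, ← S.cc_cjI hx, h, map_inv, inv_mul_cancel]
  rfl

/-- Conjugacy of characters of `C` under the normalizer. -/
def Rel (ρ σ : S.Ir) : Prop := ∃ x ∈ S.N, S.cjI x ρ = σ

theorem rel_refl (ρ : S.Ir) : S.Rel ρ ρ := ⟨1, S.N.one_mem, S.cjI_one ρ⟩

theorem rel_symm {ρ σ : S.Ir} (h : S.Rel ρ σ) : S.Rel σ ρ := by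
  obtain ⟨x, hx, rfl⟩ := h
  exact ⟨x⁻¹, S.N.inv_mem hx, S.cjI_inv hx ρ⟩

theorem rel_trans {ρ σ τ : S.Ir} (h : S.Rel ρ σ) (h' : S.Rel σ τ) : S.Rel ρ τ := by
  obtain ⟨x, hx, rfl⟩ := h
  obtain ⟨y, hy, rfl⟩ := h'
  exact ⟨y * x, S.N.mul_mem hy hx, S.cjI_mul hy hx ρ⟩

theorem rel_nt {ρ σ : S.Ir} (h : S.Rel ρ σ) (hρ : S.NT ρ) : S.NT σ := by
  obtain ⟨x, hx, rfl⟩ := h
  exact S.nt_cjI hx hρ

theorem rel_deg {ρ σ : S.Ir} (h : S.Rel ρ σ) :
    Cfsg.charDegree σ.1 = Cfsg.charDegree ρ.1 := by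
  obtain ⟨x, hx, rfl⟩ := h
  exact S.deg_cjI x ρ

/-- Indicator of conjugacy. -/
noncomputable def ind (ρ σ : S.Ir) : ℕ := by
  classical exact if S.Rel ρ σ then 1 else 0

theorem ind_eq_one {ρ σ : S.Ir} (h : S.Rel ρ σ) : S.ind ρ σ = 1 := by rw [ind, if_pos h]

theorem ind_eq_zero {ρ σ : S.Ir} (h : ¬ S.Rel ρ σ) : S.ind ρ σ = 0 := by rw [ind, if_neg h]

theorem ind_comm (ρ σ : S.Ir) : S.ind ρ σ = S.ind σ ρ := by
  by_cases h : S.Rel ρ σ
  · rw [S.ind_eq_one h, S.ind_eq_one (S.rel_symm h)]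
  · rw [S.ind_eq_zero h, S.ind_eq_zero (fun h' => h (S.rel_symm h'))]

theorem card_fiber {ρ : S.Ir} (hρ : S.NT ρ) (σ : S.Ir) :
    (S.nF.filter (fun x => S.cjI x ρ = σ)).card = S.ind ρ σ * Nat.card S.C := by
  classical
  by_cases h : S.Rel ρ σ
  · obtain ⟨x0, hx0, rfl⟩ := h
    rw [S.ind_eq_one ⟨x0, hx0, rfl⟩, one_mul, Nat.card_eq_fintype_card, ← Finset.card_univ]
    refine Finset.card_bij' (fun x hx => ⟨x0⁻¹ * x, ?_⟩) (fun c _ => x0 * (c : G))
      (fun _ _ => Finset.mem_univ _) (fun c _ => ?_) (fun x _ => mul_inv_cancel_left _ _)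
      (fun c _ => Subtype.ext (inv_mul_cancel_left _ _))
    · rw [Finset.mem_filter, S.mem_nF] at hx
      refine S.mem_C_of_cjI_eq (S.N.mul_mem (S.N.inv_mem hx0) hx.1) hρ ?_
      rw [S.cjI_mul (S.N.inv_mem hx0) hx.1, hx.2, S.cjI_inv hx0]
    · rw [Finset.mem_filter, S.mem_nF]
      exact ⟨S.N.mul_mem hx0 (S.C_le_N c.2),
        by rw [S.cjI_mul hx0 (S.C_le_N c.2), S.cjI_of_mem_C c.2]⟩
  · rw [S.ind_eq_zero h, zero_mul, Finset.card_eq_zero, Finset.filter_eq_empty_iff]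
    exact fun x hx he => h ⟨x, S.mem_nF.mp hx, he⟩

theorem sum_ind {ρ : S.Ir} (hρ : S.NT ρ) : ∑ σ, S.ind ρ σ = S.e := by
  classical
  have h := Finset.card_eq_sum_card_fiberwise (s := S.nF) (t := Finset.univ)
    (f := fun x => S.cjI x ρ) (fun _ _ => Finset.mem_univ _)
  rw [S.card_nF, Finset.sum_congr rfl (fun σ _ => S.card_fiber hρ σ), ← Finset.sum_mul] at h
  exact (Nat.eq_of_mul_eq_mul_right Nat.card_pos h).symm

/-- The conjugate sum of an irreducible character is the sum of its orbit. -/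
theorem inner_conjSum_irr {ρ : S.Ir} (hρ : S.NT ρ) (σ : S.Ir) :
    Cfsg.classInner (S.conjSum ρ.1) σ.1 = (S.ind ρ σ : ℂ) := by
  classical
  rw [classInner_conjSum_left, Finset.sum_congr rfl
    (g := fun x => if S.cjI x ρ = σ then (1 : ℂ) else 0) (fun x hx => ?_), Finset.sum_boole,
    S.card_fiber hρ]
  · push_cast
    have : (Nat.card S.C : ℂ) ≠ 0 := Nat.cast_ne_zero.mpr Nat.card_pos.ne'
    field_simp
  · rw [← CfsgLib.CharBasics.classInner_irr (S.cjI x ρ) σ]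
    congr 1
    exact funext fun c => (S.cjI_apply (S.mem_nF.mp hx) ρ c).symm

end Setting

end CfsgLib.StrongSylow
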