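import Mathlib
import Cfsg.Agent.Clifford.StrongSylow.Isometry

/-!
Norm two induced differences of twisted characters of `C(P)`, and irreducible characters of `G`
whose part nontrivial on `P` is a single orbit.
-/

set_option linter.unusedSectionVars false

namespace CfsgLib.StrongSylow

universe u

open scoped ComplexConjugate

section General

variable {K : Type u} [Group K] [Fintype K]

theorem classInner_sub_right (φ ψ ψ' : K → ℂ) :
    Cfsg.classInner φ (ψ - ψ') = Cfsg.classInner φ ψ - Cfsg.classInner φ ψ' := by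
  simp [CfsgLib.CharBasics.classInner_eq, mul_sub, Finset.sum_sub_distrib]

theorem classInner_left_mult {Φ : K → ℂ} (h : Cfsg.IsCharacter K Φ) (σ : Cfsg.IrrCharacter K) :
    Cfsg.classInner (σ : K → ℂ) Φ = (mult Φ σ : ℂ) := by
  rw [CfsgLib.CharBasics.classInner_comm, mult_spec h, Complex.conj_natCast]

/-- An integral class function of norm two vanishing at one is a difference of two irreducibles. -/
theorem norm_two [Fintype (Cfsg.IrrCharacter K)] {F : K → ℂ}
    (hF : Cfsg.IsClassFunction K F)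
    (hint : ∀ ψ : Cfsg.IrrCharacter K, ∃ c : ℤ, Cfsg.classInner F (ψ : K → ℂ) = c)
    (h1 : F 1 = 0) (h2 : Cfsg.classInner F F = 2) {η : Cfsg.IrrCharacter K} {a : ℤ}
    (ha : Cfsg.classInner F (η : K → ℂ) = a) (hapos : 0 < a) :
    a = 1 ∧ ∃ η' : Cfsg.IrrCharacter K, η' ≠ η ∧ F = (η : K → ℂ) - (η' : K → ℂ) := by
  classical
  choose c hc using hint
  have hexp := CfsgLib.CharBasics.classFun_expand hF
  simp only [hc] at hexp
  have hsq : ∑ ψ, c ψ * c ψ = 2 := by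
    nth_rewrite 1 [hexp] at h2
    rw [CfsgLib.CharBasics.classInner_sum_left,
      Finset.sum_congr rfl (g := fun ψ => ((c ψ * c ψ : ℤ) : ℂ)) fun ψ _ => by
        rw [CfsgLib.CharBasics.classInner_smul_left, CfsgLib.CharBasics.classInner_comm, hc ψ]; simp] at h2
    exact_mod_cast h2
  have hsum : ∑ ψ, c ψ * (Cfsg.charDegree (ψ : K → ℂ) : ℤ) = 0 := by
    have h := congrFun hexp 1
    rw [h1, Finset.sum_apply] at h
    simp only [Pi.smul_apply, smul_eq_mul, fun ψ : Cfsg.IrrCharacter K =>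
      CfsgLib.CharBasics.apply_one (CfsgLib.CharBasics.isCharacter_of_irr ψ.2)] at h
    exact_mod_cast h.symm
  have hd : ∀ ψ : Cfsg.IrrCharacter K, 0 < (Cfsg.charDegree (ψ : K → ℂ) : ℤ) := fun ψ => by
    exact_mod_cast CfsgLib.CharBasics.charDegree_pos ψ.2
  have hη : c η = a := by exact_mod_cast (hc η).symm.trans ha
  obtain ⟨m, hm⟩ : ∃ m, c m < 0 := by
    by_contra hh
    push Not at hh
    have := (Finset.sum_eq_zero_iff_of_nonneg
      (fun x _ => mul_nonneg (hh x) (hd x).le)).mp hsum η (Finset.mem_univ _)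
    have := (mul_eq_zero.mp this).resolve_right (hd η).ne'
    omega
  have hpm : η ≠ m := fun h => by rw [← h] at hm; omega
  rw [← Finset.add_sum_erase _ _ (Finset.mem_univ η),
    ← Finset.add_sum_erase _ _ (Finset.mem_erase.mpr ⟨hpm.symm, Finset.mem_univ m⟩)] at hsq
  have hnn : ∀ x ∈ (Finset.univ.erase η).erase m, 0 ≤ c x * c x := fun x _ => mul_self_nonneg _
  have hp2 : 1 ≤ c η * c η := by nlinarith
  have hm2 : 1 ≤ c m * c m := by nlinarith
  have hrest0 : ∑ x ∈ (Finset.univ.erase η).erase m, c x * c x = 0 := by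
    have := Finset.sum_nonneg hnn
    omega
  have hrest : ∀ x, x ≠ η → x ≠ m → c x = 0 := fun x h1 h2 => mul_self_eq_zero.mp
    ((Finset.sum_eq_zero_iff_of_nonneg hnn).mp hrest0 x (by simp [h1, h2]))
  have hcp : c η = 1 := by nlinarith
  have hcm : c m = -1 := by nlinarith
  refine ⟨by omega, m, hpm.symm, ?_⟩
  rw [hexp, ← Finset.add_sum_erase _ _ (Finset.mem_univ η),
    ← Finset.add_sum_erase _ _ (Finset.mem_erase.mpr ⟨hpm.symm, Finset.mem_univ m⟩),
    Finset.sum_eq_zero fun x hx => by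
      rw [hrest x (by simp at hx; exact hx.2) (by simp at hx; exact hx.1), Int.cast_zero, zero_smul],
    hcp, hcm]
  simp [sub_eq_add_neg]

end General

namespace Setting

variable {G : Type u} [Group G] [Fintype G] (S : Setting G)

/-- `P` as a commutative group. -/
@[reducible] def commP : CommGroup S.P := { S.P.toGroup with mul_comm := S.comm_P }

theorem card_tw : Nat.card S.Tw = Nat.card S.P := by
  letI := S.commP
  exact CommGroup.card_monoidHom_of_hasEnoughRootsOfUnity S.P ℂ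

instance finiteTw : Finite S.Tw :=
  Nat.finite_of_card_ne_zero (by rw [S.card_tw]; exact Nat.card_pos.ne')

noncomputable instance fintypeTw : Fintype S.Tw := Fintype.ofFinite _

noncomputable instance decTw : DecidableEq S.Tw := Classical.decEq _

theorem card_univ_tw : (Finset.univ : Finset S.Tw).card = Nat.card S.P := by
  rw [Finset.card_univ, ← Nat.card_eq_fintype_card, S.card_tw]

theorem sum_tw_apply {y : S.P} (hy : y ≠ 1) : ∑ μ : S.Tw, (μ y : ℂ) = 0 := by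
  letI := S.commP
  obtain ⟨φ, hφ⟩ := CommGroup.exists_apply_ne_one_of_hasEnoughRootsOfUnity S.P ℂ hy
  let φ' : S.Tw := φ
  have h : ∑ μ : S.Tw, (μ y : ℂ) = (φ' y : ℂ) * ∑ μ : S.Tw, (μ y : ℂ) := by
    rw [Finset.mul_sum]
    conv_lhs => rw [← Equiv.sum_comp (Equiv.mulLeft φ') (fun μ : S.Tw => (μ y : ℂ))]
    exact Finset.sum_congr rfl fun μ _ => by simp
  by_contra hne
  apply hφ
  have : (φ' y : ℂ) = 1 := mul_right_cancel₀ hne (by rw [one_mul]; exact h.symm)
  exact Units.ext this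

theorem sum_hom_apply {μ : S.Tw} (hμ : μ ≠ 1) : ∑ y : S.P, (μ y : ℂ) = 0 := by
  obtain ⟨z, hz⟩ : ∃ z, μ z ≠ 1 := by
    by_contra h
    push Not at h
    exact hμ (MonoidHom.ext h)
  have h : ∑ y : S.P, (μ y : ℂ) = (μ z : ℂ) * ∑ y : S.P, (μ y : ℂ) := by
    rw [Finset.mul_sum]
    conv_lhs => rw [← Equiv.sum_comp (Equiv.mulLeft z) (fun y : S.P => (μ y : ℂ))]
    exact Finset.sum_congr rfl fun y _ => by simp
  by_contra hne
  apply hz
  have : (μ z : ℂ) = 1 := mul_right_cancel₀ hne (by rw [one_mul]; exact h.symm)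
  exact Units.ext this

/-- Restriction to `C`. -/
abbrev res (η : G → ℂ) : S.C → ℂ := fun c => η (c : G)

theorem isCharacter_res {η : G → ℂ} (h : Cfsg.IsCharacter G η) :
    Cfsg.IsCharacter S.C (S.res η) :=
  CfsgLib.CharBasics.isCharacter_restrict h S.C

theorem isChar_irr (η : Cfsg.IrrCharacter G) : Cfsg.IsCharacter G η.1 :=
  CfsgLib.CharBasics.isCharacter_of_irr η.2

/-- Multiplicity in the restriction to `C`. -/
noncomputable def mC (η : G → ℂ) (σ : S.Ir) : ℕ := mult (S.res η) σ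

theorem mC_spec {η : G → ℂ} (h : Cfsg.IsCharacter G η) (σ : S.Ir) :
    Cfsg.classInner (S.res η) σ.1 = (S.mC η σ : ℂ) := mult_spec (S.isCharacter_res h) σ

theorem mC_one (σ : S.Ir) (hσ : S.mC (fun _ : G => (1 : ℂ)) σ ≠ 0) : S.cc σ = 1 := by
  have h : σ = (CfsgLib.CharBasics.oneChar : S.Ir) := by
    by_contra hne
    apply hσ
    show mult (((CfsgLib.CharBasics.oneChar : S.Ir) : S.C → ℂ)) σ = 0
    rw [mult_irr, if_neg (Ne.symm hne)]
  subst h
  refine MonoidHom.ext fun y => Units.ext ?_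
  simp [cc_val, CfsgLib.CharBasics.oneChar_apply]

theorem classInner_invariant_cjI {φ : S.C → ℂ} (hφ : S.Invariant φ) {x : G} (hx : x ∈ S.N)
    (σ : S.Ir) : Cfsg.classInner φ (S.cjI x σ).1 = Cfsg.classInner φ σ.1 := by
  conv_rhs => rw [← S.classInner_comp_cj hx]
  congr 1
  · funext c; exact (hφ x hx c).symm
  · funext c; exact S.cjI_apply hx σ c

theorem mC_rel {η : G → ℂ} (h : Cfsg.IsCharacter G η) {ρ σ : S.Ir} (hr : S.Rel ρ σ) :
    S.mC η σ = S.mC η ρ := by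
  obtain ⟨x, hx, rfl⟩ := hr
  have := S.classInner_invariant_cjI (S.invariant_restrict (CfsgLib.CharBasics.isClassFunction h)) hx ρ
  rw [S.mC_spec h, S.mC_spec h] at this
  exact_mod_cast this

open scoped Classical in
/-- The orbit of a character. -/
noncomputable def orb (ρ : S.Ir) : Finset S.Ir := Finset.univ.filter (fun σ => S.Rel ρ σ)

theorem mem_orb {ρ σ : S.Ir} : σ ∈ S.orb ρ ↔ S.Rel ρ σ := by simp [orb]

theorem card_orb {ρ : S.Ir} (hρ : S.NT ρ) : (S.orb ρ).card = S.e := by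
  classical
  rw [← S.sum_ind hρ, orb, Finset.card_filter]
  refine Finset.sum_congr rfl fun σ _ => ?_
  by_cases h : S.Rel ρ σ
  · rw [if_pos h, S.ind_eq_one h]
  · rw [if_neg h, S.ind_eq_zero h]

open scoped Classical in
/-- The characters nontrivial on `P` with a given twist trivial on `P`. -/
noncomputable def cls (τ : S.Ir) : Finset S.Ir :=
  Finset.univ.filter (fun σ => S.NT σ ∧ S.tp σ = τ)

theorem mem_cls {τ σ : S.Ir} : σ ∈ S.cls τ ↔ S.NT σ ∧ S.tp σ = τ := by simp [cls]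

theorem tp_of_cc_eq_one {τ : S.Ir} (h : S.cc τ = 1) : S.tp τ = τ := by
  rw [tp, h, show (1 : S.Tw)⁻¹ = 1 from MonoidHom.ext fun y => by simp, S.twist_one]

theorem cls_eq_image {τ : S.Ir} (h : S.cc τ = 1) :
    S.cls τ = (Finset.univ.erase 1).image (fun μ => S.twist μ τ) := by
  ext σ
  rw [S.mem_cls, Finset.mem_image]
  constructor
  · rintro ⟨h1, rfl⟩
    exact ⟨S.cc σ, Finset.mem_erase.mpr ⟨h1, Finset.mem_univ _⟩, S.twist_cc_tp σ⟩
  · rintro ⟨μ, hμ, rfl⟩
    refine ⟨?_, by rw [S.tp_twist, S.tp_of_cc_eq_one h]⟩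
    rw [NT, S.cc_twist, h, show μ * (1 : S.Tw) = μ from MonoidHom.ext fun y => by simp]
    exact (Finset.mem_erase.mp hμ).1

theorem card_cls {τ : S.Ir} (h : S.cc τ = 1) : (S.cls τ).card = Nat.card S.P - 1 := by
  rw [S.cls_eq_image h, Finset.card_image_of_injective _ (S.twist_injective τ),
    Finset.card_erase_of_mem (Finset.mem_univ _), S.card_univ_tw]

/-- A twist whose orbit has no common linear character of `P` with the orbit of `ρ`. -/
theorem exists_avoid (hq : S.e + 1 < Nat.card S.P) {ρ : S.Ir} (hρ : S.NT ρ) :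
    ∃ σ, S.NT σ ∧ S.tp σ = S.tp ρ ∧
      ∀ σ₁ σ₂, S.Rel ρ σ₁ → S.Rel σ σ₂ → S.cc σ₁ ≠ S.cc σ₂ := by
  classical
  let Bad : Finset S.Tw := insert 1 ((S.orb ρ).image S.cc)
  obtain ⟨μ, hμ⟩ : ∃ μ, μ ∉ Bad := by
    by_contra h
    push Not at h
    have h1 : (Finset.univ : Finset S.Tw).card ≤ Bad.card :=
      Finset.card_le_card fun μ _ => h μ
    have h2 : Bad.card ≤ S.e + 1 := by
      refine (Finset.card_insert_le _ _).trans ?_
      have := (Finset.card_image_le (s := S.orb ρ) (f := S.cc))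
      rw [S.card_orb hρ] at this
      omega
    rw [S.card_univ_tw] at h1
    omega
  have hcc : S.cc (S.twist μ (S.tp ρ)) = μ := by
    rw [S.cc_twist, S.cc_tp]; exact MonoidHom.ext fun y => by simp
  refine ⟨S.twist μ (S.tp ρ), ?_, ?_, ?_⟩
  · rw [NT, hcc]; exact fun h => hμ (h ▸ Finset.mem_insert_self _ _)
  · rw [S.tp_twist, S.tp_of_cc_eq_one (S.cc_tp ρ)]
  · intro σ₁ σ₂ h1 h2 he
    obtain ⟨x, hx, rfl⟩ := h2
    apply hμ
    refine Finset.mem_insert_of_mem (Finset.mem_image.mpr ⟨S.cjI x⁻¹ σ₁, ?_, ?_⟩)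
    · exact S.mem_orb.mpr (S.rel_trans h1 ⟨x⁻¹, S.N.inv_mem hx, rfl⟩)
    · refine MonoidHom.ext fun y => ?_
      rw [S.cc_cjI (S.N.inv_mem hx), he, ← S.cc_cjI (S.N.inv_mem hx), S.cjI_inv hx, hcc]

theorem vanA_pair {ρ σ : S.Ir} (h : S.tp ρ = S.tp σ) : S.VanA (ρ.1 - σ.1) := by
  intro c hc
  have h1 := congrFun (congrArg Subtype.val h) c
  rw [S.tp_apply, S.tp_apply, hc, inv_one, map_one, one_mul] at h1
  rw [Pi.sub_apply, h1, sub_self]

theorem inner_pair {η : G → ℂ} (hη : Cfsg.IsCharacter G η) (ρ σ : S.Ir) :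
    Cfsg.classInner (Cfsg.indFun S.C (ρ.1 - σ.1)) η = (S.mC η ρ : ℂ) - (S.mC η σ : ℂ) := by
  rw [S.classInner_ind _ (CfsgLib.CharBasics.isClassFunction hη),
    CfsgLib.Clifford.classInner_sub_left,
    classInner_left_mult (S.isCharacter_res hη), classInner_left_mult (S.isCharacter_res hη)]
  rfl

theorem inner_irr_conjSum {ρ' : S.Ir} (hρ' : S.NT ρ') (ρ : S.Ir) :
    Cfsg.classInner ρ.1 (S.conjSum ρ'.1) = (S.ind ρ' ρ : ℂ) := by
  rw [CfsgLib.CharBasics.classInner_comm, S.inner_conjSum_irr hρ', Complex.conj_natCast]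

theorem inner_pair_pair {ρ σ ρ' σ' : S.Ir} (hρ' : S.NT ρ') (hσ' : S.NT σ')
    (h' : S.tp ρ' = S.tp σ') :
    Cfsg.classInner (Cfsg.indFun S.C (ρ.1 - σ.1)) (Cfsg.indFun S.C (ρ'.1 - σ'.1)) =
      (S.ind ρ' ρ : ℂ) - S.ind σ' ρ - ((S.ind ρ' σ : ℂ) - S.ind σ' σ) := by
  rw [S.classInner_ind_ind _ (S.vanA_pair h'), S.conjSum_sub,
    CfsgLib.Clifford.classInner_sub_left, classInner_sub_right, classInner_sub_right,
    S.inner_irr_conjSum hρ', S.inner_irr_conjSum hρ', S.inner_irr_conjSum hσ',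
    S.inner_irr_conjSum hσ']

theorem inner_pair_restrict {ρ σ : S.Ir} (hρ : S.NT ρ) (hσ : S.NT σ) (h : S.tp ρ = S.tp σ)
    (τ : S.Ir) :
    Cfsg.classInner (S.res (Cfsg.indFun S.C (ρ.1 - σ.1))) τ.1 =
      (S.ind ρ τ : ℂ) - S.ind σ τ := by
  rw [show S.res (Cfsg.indFun S.C (ρ.1 - σ.1)) = S.conjSum (ρ.1 - σ.1) from
    funext (S.ind_restrict (S.vanA_pair h)), S.conjSum_sub,
    CfsgLib.Clifford.classInner_sub_left, S.inner_conjSum_irr hρ, S.inner_conjSum_irr hσ]

/-- The fundamental lemma on induced differences. -/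
theorem pair_main {η : Cfsg.IrrCharacter G} {ρ σ : S.Ir} (hρ : S.NT ρ) (hσ : S.NT σ)
    (h : S.tp ρ = S.tp σ) (hr : ¬ S.Rel ρ σ) (hlt : S.mC η.1 σ < S.mC η.1 ρ) :
    S.mC η.1 ρ = S.mC η.1 σ + 1 ∧
    (∀ η'' : Cfsg.IrrCharacter G, S.mC η''.1 σ < S.mC η''.1 ρ → η'' = η) ∧
    ∃ η' : Cfsg.IrrCharacter G, η' ≠ η ∧
      Cfsg.indFun S.C (ρ.1 - σ.1) = η.1 - η'.1 ∧
      Cfsg.charDegree η'.1 = Cfsg.charDegree η.1 ∧
      ∀ τ, S.mC η'.1 τ + S.ind ρ τ = S.mC η.1 τ + S.ind σ τ := by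
  classical
  haveI := Fintype.ofFinite (Cfsg.IrrCharacter G)
  set F := Cfsg.indFun S.C (ρ.1 - σ.1) with hF
  have hrho := S.ind_eq_zero hr
  have hsig : S.ind σ ρ = 0 := by rw [S.ind_comm, hrho]
  have hn : Cfsg.classInner F F = 2 := by
    rw [hF, S.inner_pair_pair hρ hσ h, S.ind_eq_one (S.rel_refl ρ), S.ind_eq_one (S.rel_refl σ),
      hrho, hsig]
    norm_num
  have hint : ∀ ψ : Cfsg.IrrCharacter G, Cfsg.classInner F ψ.1 =
      (((S.mC ψ.1 ρ : ℤ) - (S.mC ψ.1 σ : ℤ) : ℤ) : ℂ) := fun ψ => by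
    rw [hF, S.inner_pair (isChar_irr ψ)]; push_cast; rfl
  obtain ⟨ha, η', hne, hFe⟩ := norm_two (CfsgLib.CharBasics.isClassFunction_indFun _ _)
    (fun ψ => ⟨_, hint ψ⟩) (S.ind_one (S.vanA_pair h)) hn (hint η) (by omega)
  refine ⟨by omega, fun η'' h'' => ?_, η', hne, hFe, ?_, fun τ => ?_⟩
  · by_contra hne''
    have h1 := hint η''
    rw [show F = η.1 - η'.1 from hFe, CfsgLib.Clifford.classInner_sub_left,
      CfsgLib.CharBasics.classInner_irr η η'', if_neg (Ne.symm hne''),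
      CfsgLib.CharBasics.classInner_irr η' η''] at h1
    push_cast at h1
    split_ifs at h1
    · have h3 : (S.mC η''.1 σ : ℂ) = S.mC η''.1 ρ + 1 := by linear_combination h1
      have : S.mC η''.1 σ = S.mC η''.1 ρ + 1 := by exact_mod_cast h3
      omega
    · have h3 : (S.mC η''.1 σ : ℂ) = S.mC η''.1 ρ := by linear_combination h1
      have : S.mC η''.1 σ = S.mC η''.1 ρ := by exact_mod_cast h3
      omega
  · have h1 := congrFun hFe 1
    rw [S.ind_one (S.vanA_pair h), Pi.sub_apply, CfsgLib.CharBasics.apply_one (isChar_irr η),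
      CfsgLib.CharBasics.apply_one (isChar_irr η')] at h1
    exact_mod_cast (sub_eq_zero.mp h1.symm).symm
  · have h1 := S.inner_pair_restrict hρ hσ h τ
    rw [← hF, show F = η.1 - η'.1 from hFe, show S.res (η.1 - η'.1) = S.res η.1 - S.res η'.1 from rfl,
      CfsgLib.Clifford.classInner_sub_left, S.mC_spec (isChar_irr η),
      S.mC_spec (isChar_irr η')] at h1
    have h2 : (S.mC η'.1 τ : ℂ) + S.ind ρ τ = S.mC η.1 τ + S.ind σ τ := by linear_combination -h1
    exact_mod_cast h2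

/-- The part of `η` nontrivial on `P` is the orbit of `σ`, with multiplicity one. -/
def Single (η : Cfsg.IrrCharacter G) (σ : S.Ir) : Prop :=
  S.NT σ ∧ ∀ τ, S.NT τ → S.mC η.1 τ = S.ind σ τ

theorem single_rel {η : Cfsg.IrrCharacter G} {σ σ' : S.Ir} (h : S.Single η σ)
    (hr : S.Rel σ σ') : S.Single η σ' := by
  refine ⟨S.rel_nt hr h.1, fun τ hτ => ?_⟩
  rw [h.2 τ hτ]
  by_cases h1 : S.Rel σ τ
  · rw [S.ind_eq_one h1, S.ind_eq_one (S.rel_trans (S.rel_symm hr) h1)]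
  · rw [S.ind_eq_zero h1, S.ind_eq_zero (fun h2 => h1 (S.rel_trans hr h2))]

theorem single_member {η : Cfsg.IrrCharacter G} {σ σ' : S.Ir} (h : S.Single η σ)
    (h' : S.Single η σ') : S.Rel σ σ' := by
  by_contra hn
  have h1 := h.2 σ' h'.1
  rw [h'.2 σ' h'.1, S.ind_eq_one (S.rel_refl σ'), S.ind_eq_zero hn] at h1
  exact one_ne_zero h1

theorem single_unique (hq : S.e + 1 < Nat.card S.P) {η η' : Cfsg.IrrCharacter G} {σ : S.Ir}
    (h : S.Single η σ) (h' : S.Single η' σ) : η' = η := by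
  obtain ⟨w, hw, htp, hav⟩ := S.exists_avoid hq h.1
  have hr : ¬ S.Rel σ w := fun hr => hav w w hr (S.rel_refl w) rfl
  have hm : ∀ {ζ : Cfsg.IrrCharacter G}, S.Single ζ σ → S.mC ζ.1 w < S.mC ζ.1 σ := by
    intro ζ hζ
    rw [hζ.2 w hw, hζ.2 σ hζ.1, S.ind_eq_zero hr, S.ind_eq_one (S.rel_refl σ)]
    exact one_pos
  exact (S.pair_main h.1 hw htp.symm hr (hm h)).2.1 η' (hm h')

theorem single_twist {η : Cfsg.IrrCharacter G} {σ σ' : S.Ir} (h : S.Single η σ) (h' : S.NT σ')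
    (htp : S.tp σ = S.tp σ') :
    ∃ η' : Cfsg.IrrCharacter G, S.Single η' σ' ∧
      Cfsg.charDegree η'.1 = Cfsg.charDegree η.1 ∧
      ∀ τ, ¬ S.NT τ → S.mC η'.1 τ = S.mC η.1 τ := by
  by_cases hr : S.Rel σ σ'
  · exact ⟨η, S.single_rel h hr, rfl, fun _ _ => rfl⟩
  · have hlt : S.mC η.1 σ' < S.mC η.1 σ := by
      rw [h.2 σ' h', h.2 σ h.1, S.ind_eq_zero hr, S.ind_eq_one (S.rel_refl σ)]
      exact one_pos
    obtain ⟨-, -, η', -, -, hdeg, hm⟩ := S.pair_main h.1 h' htp hr hlt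
    refine ⟨η', ⟨h', fun τ hτ => ?_⟩, hdeg, fun τ hτ => ?_⟩
    · have h1 := hm τ
      have h2 := h.2 τ hτ
      omega
    · have h1 := hm τ
      have h2 : S.ind σ τ = 0 := S.ind_eq_zero fun hh => hτ (S.rel_nt hh h.1)
      have h3 : S.ind σ' τ = 0 := S.ind_eq_zero fun hh => hτ (S.rel_nt hh h')
      omega

end Setting

end CfsgLib.StrongSylow
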