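import Mathlib
import Cfsg.Agent.Clifford.StrongSylow.Pairs
import Cfsg.Agent.CharBasics.Avg

/-!
The two inequalities: small irreducible characters restrict to `C(P)` as one orbit, and the
arithmetic mean bound for a character constant on the `p`-complement of `C(P)`.
-/

set_option linter.unusedSectionVars false

namespace CfsgLib.StrongSylow

universe u

open scoped ComplexConjugate

section General

variable {K : Type u} [Group K] [Fintype K]

theorem classInner_self_real (φ : K → ℂ) :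
    Cfsg.classInner φ φ = (((Nat.card K : ℝ)⁻¹ * ∑ k : K, ‖φ k‖ ^ 2 : ℝ) : ℂ) := by
  rw [CfsgLib.CharBasics.classInner_eq]
  push_cast
  simp only [Complex.mul_conj']

theorem classInner_quad (a b : K → ℂ) (r : ℂ) (hr : conj r = r) :
    Cfsg.classInner (a - r • b) (a - r • b) = Cfsg.classInner a a - r * Cfsg.classInner b a
      - r * Cfsg.classInner a b + r * r * Cfsg.classInner b b := by
  simp only [CfsgLib.CharBasics.classInner_eq, Finset.mul_sum, ← Finset.sum_sub_distrib,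
    ← Finset.sum_add_distrib]
  refine Finset.sum_congr rfl fun k _ => ?_
  simp only [Pi.sub_apply, Pi.smul_apply, smul_eq_mul, map_sub, map_mul, hr]
  ring

theorem mult_decomp {L : Type u} [Group L] [Fintype L] [Fintype (Cfsg.IrrCharacter K)]
    (f : L →* K) {Ψ : K → ℂ} (h : Cfsg.IsCharacter K Ψ) (σ : Cfsg.IrrCharacter L) :
    mult (fun l => Ψ (f l)) σ =
      ∑ η : Cfsg.IrrCharacter K, mult Ψ η * mult (fun l => η.1 (f l)) σ := by
  have hc : ∀ Φ : K → ℂ, Cfsg.IsCharacter K Φ → Cfsg.IsCharacter L (fun l => Φ (f l)) :=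
    fun Φ hΦ => CfsgLib.CharBasics.isCharacter_comp hΦ f
  have he : (fun l => Ψ (f l)) =
      ∑ η : Cfsg.IrrCharacter K, (mult Ψ η : ℂ) • (fun l => η.1 (f l)) := by
    funext l
    rw [expand h, Finset.sum_apply]
    rfl
  have h1 := mult_spec (hc Ψ h) σ
  rw [he, CfsgLib.CharBasics.classInner_sum_left, Finset.sum_congr rfl (fun η _ => by
    rw [CfsgLib.CharBasics.classInner_smul_left,
      mult_spec (hc η.1 (CfsgLib.CharBasics.isCharacter_of_irr η.2)) σ]), ← he] at h1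
  exact_mod_cast h1.symm

end General

namespace Setting

variable {G : Type u} [Group G] [Fintype G] (S : Setting G)

theorem mC_decomp [Fintype (Cfsg.IrrCharacter G)] {Ψ : G → ℂ} (h : Cfsg.IsCharacter G Ψ)
    (σ : S.Ir) :
    S.mC Ψ σ = ∑ η : Cfsg.IrrCharacter G, mult Ψ η * S.mC η.1 σ :=
  mult_decomp S.C.subtype h σ

theorem mC_deg {η : G → ℂ} (h : Cfsg.IsCharacter G η) :
    ∑ σ : S.Ir, S.mC η σ * Cfsg.charDegree σ.1 = Cfsg.charDegree η :=
  degree_sum (S.isCharacter_res h)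

/-- If all constituents are trivial on `P` then `P` is in the kernel. -/
theorem apply_incl_of_all_trivial {η : G → ℂ} (h : Cfsg.IsCharacter G η)
    (hall : ∀ σ, S.mC η σ ≠ 0 → ¬ S.NT σ) (y : S.P) : η (y : G) = η 1 := by
  have h1 := expand (S.isCharacter_res h) (S.incl y)
  have h2 := expand (S.isCharacter_res h) 1
  simp only [res, coe_incl, OneMemClass.coe_one] at h1 h2
  rw [h1, h2]
  refine Finset.sum_congr rfl fun σ _ => ?_
  by_cases hm : S.mC η σ = 0
  · rw [show mult (fun c : S.C => η c) σ = 0 from hm]; simp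
  · have hcc : S.cc σ = 1 := not_not.mp (hall σ hm)
    have := S.apply_incl_mul σ y 1
    rw [mul_one, hcc, MonoidHom.one_apply, Units.val_one, one_mul] at this
    rw [this]

theorem exists_nt {η : G → ℂ} (h : Cfsg.IsCharacter G η) {y : S.P} (hy : η (y : G) ≠ η 1) :
    ∃ σ, S.NT σ ∧ 0 < S.mC η σ := by
  by_contra hc
  push Not at hc
  refine hy (S.apply_incl_of_all_trivial h (fun σ hσ hnt => hσ ?_) y)
  have := hc σ hnt
  omega

open scoped Classical in
/-- A class function of `G` restricted to `C` and cut off on the `p`-complement. -/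
noncomputable def offA (η : G → ℂ) (c : S.C) : ℂ := if S.proj c = 1 then 0 else η (c : G)

theorem vanA_offA (η : G → ℂ) : S.VanA (S.offA η) := fun c hc => by rw [offA, if_pos hc]

theorem invariant_offA {η : G → ℂ} (h : Cfsg.IsClassFunction G η) : S.Invariant (S.offA η) := by
  intro x hx c
  by_cases hc : S.proj c = 1
  · rw [offA, offA, if_pos ((S.proj_cj_eq_one hx c).mpr hc), if_pos hc]
  · rw [offA, offA, if_neg (fun h' => hc ((S.proj_cj_eq_one hx c).mp h')), if_neg hc]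
    exact S.invariant_restrict h x hx c

open scoped Classical in
/-- The `p`-complement of `C` as a finset. -/
noncomputable def aF : Finset S.C := Finset.univ.filter (fun c => S.proj c = 1)

theorem mem_aF {c : S.C} : c ∈ S.aF ↔ S.proj c = 1 := by simp [aF]

theorem card_aF : S.aF.card * Nat.card S.P = Nat.card S.C := by
  classical
  rw [← S.card_ker, Nat.card_eq_fintype_card (α := S.proj.ker), Fintype.card_subtype]
  congr 2
  ext c
  simp [mem_aF, MonoidHom.mem_ker]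

theorem inner_offA (η : G → ℂ) (ψ : S.C → ℂ) :
    Cfsg.classInner (S.offA η) ψ = Cfsg.classInner (S.res η) ψ
      - (Nat.card S.C : ℂ)⁻¹ * ∑ c ∈ S.aF, η (c : G) * conj (ψ c) := by
  classical
  rw [CfsgLib.CharBasics.classInner_eq, CfsgLib.CharBasics.classInner_eq, ← mul_sub, aF,
    Finset.sum_filter, ← Finset.sum_sub_distrib]
  congr 1
  refine Finset.sum_congr rfl fun c _ => ?_
  by_cases hc : S.proj c = 1
  · simp [offA, if_pos hc]
  · simp [offA, if_neg hc]

theorem inner_offA_res (η : G → ℂ) :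
    Cfsg.classInner (S.offA η) (S.res η) = Cfsg.classInner (S.offA η) (S.offA η) := by
  rw [CfsgLib.CharBasics.classInner_eq, CfsgLib.CharBasics.classInner_eq]
  congr 1
  refine Finset.sum_congr rfl fun c _ => ?_
  by_cases hc : S.proj c = 1
  · simp [offA, if_pos hc]
  · simp [offA, if_neg hc]

/-- The difference between `η` and the normalized induced function. -/
noncomputable def defect (η : G → ℂ) : G → ℂ :=
  η - ((S.e : ℂ))⁻¹ • Cfsg.indFun S.C (S.offA η)

theorem e_ne : (S.e : ℂ) ≠ 0 := Nat.cast_ne_zero.mpr S.e_pos.ne'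

theorem defect_norm (η : Cfsg.IrrCharacter G) :
    Cfsg.classInner (S.defect η.1) (S.defect η.1) =
      1 - (S.e : ℂ)⁻¹ * Cfsg.classInner (S.offA η.1) (S.offA η.1) := by
  have hcf := CfsgLib.CharBasics.isClassFunction (isChar_irr η)
  have h1 : Cfsg.classInner (Cfsg.indFun S.C (S.offA η.1)) η.1 =
      Cfsg.classInner (S.offA η.1) (S.offA η.1) := by
    rw [S.classInner_ind _ hcf]; exact S.inner_offA_res η.1
  have h2 : Cfsg.classInner η.1 (Cfsg.indFun S.C (S.offA η.1)) =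
      Cfsg.classInner (S.offA η.1) (S.offA η.1) := by
    rw [CfsgLib.CharBasics.classInner_comm, h1, ← CfsgLib.CharBasics.classInner_comm]
  have h3 : Cfsg.classInner (Cfsg.indFun S.C (S.offA η.1)) (Cfsg.indFun S.C (S.offA η.1)) =
      (S.e : ℂ) * Cfsg.classInner (S.offA η.1) (S.offA η.1) := by
    rw [S.classInner_ind_ind _ (S.vanA_offA η.1),
      S.conjSum_of_invariant (S.invariant_offA hcf), CfsgLib.CharBasics.classInner_comm,
      CfsgLib.CharBasics.classInner_smul_left, map_mul, Complex.conj_natCast,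
      ← CfsgLib.CharBasics.classInner_comm]
  rw [defect, classInner_quad _ _ _ (by rw [map_inv₀, Complex.conj_natCast]), h1, h2, h3,
    CfsgLib.CharBasics.classInner_self η.2]
  have := S.e_ne
  field_simp
  ring

theorem defect_zero {η : G → ℂ} (h : Cfsg.IsClassFunction G η) {g x : G} {c : S.C}
    (hc : S.proj c ≠ 1) (hx : x⁻¹ * g * x = c) : S.defect η g = 0 := by
  have hF := CfsgLib.CharBasics.isClassFunction_indFun S.C (S.offA η)
  have e1 : η (c : G) = η g := by rw [← hx]; simpa using h g x⁻¹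
  have e2 : Cfsg.indFun S.C (S.offA η) (c : G) = Cfsg.indFun S.C (S.offA η) g := by
    rw [← hx]; simpa using hF g x⁻¹
  rw [defect, Pi.sub_apply, Pi.smul_apply, ← e1, ← e2, S.ind_restrict (S.vanA_offA η),
    S.conjSum_of_invariant (S.invariant_offA h), Pi.smul_apply, offA, if_neg hc,
    smul_eq_mul, smul_eq_mul, inv_mul_cancel_left₀ S.e_ne, sub_self]

theorem defect_of_not {η : G → ℂ} {g : G}
    (hg : ∀ c : S.C, S.proj c ≠ 1 → ∀ x : G, x⁻¹ * g * x ≠ c) : S.defect η g = η g := by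
  rw [defect, Pi.sub_apply, Pi.smul_apply, S.ind_zero (S.vanA_offA η) hg, smul_zero, sub_zero]

/-- A small irreducible character nontrivial on `P` restricts to a single orbit. -/
theorem small_restrict (χ : Cfsg.IrrCharacter G) {y : S.P} (hy : χ.1 (y : G) ≠ χ.1 1)
    (hd : Cfsg.charDegree χ.1 ^ 2 < Nat.card S.P) :
    ∃ ξ, S.NT ξ ∧ (∀ σ, S.mC χ.1 σ = S.ind ξ σ) ∧
      Cfsg.charDegree χ.1 = S.e * Cfsg.charDegree ξ.1 := by
  classical
  obtain ⟨ξ, hξ, hm⟩ := S.exists_nt (isChar_irr χ) hy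
  have hlt : (∑ σ : S.Ir, S.mC χ.1 σ * S.mC χ.1 σ : ℕ) < S.e + 1 := by
    set M : ℕ := ∑ σ : S.Ir, S.mC χ.1 σ * S.mC χ.1 σ with hM
    have hN : Cfsg.classInner (S.offA χ.1) (S.offA χ.1) =
        ((M : ℝ) - (Nat.card S.C : ℝ)⁻¹ * ∑ c ∈ S.aF, ‖χ.1 (c : G)‖ ^ 2 : ℝ) := by
      rw [← S.inner_offA_res, S.inner_offA, classInner_sum_sq (S.isCharacter_res (isChar_irr χ))]
      push_cast
      simp only [Complex.mul_conj']
      rw [hM]; push_cast; rfl
    have hpos : (0 : ℝ) ≤ 1 - (S.e : ℝ)⁻¹ *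
        ((M : ℝ) - (Nat.card S.C : ℝ)⁻¹ * ∑ c ∈ S.aF, ‖χ.1 (c : G)‖ ^ 2) := by
      have h := classInner_self_real (S.defect χ.1)
      rw [S.defect_norm, hN] at h
      rw [Complex.ext_iff] at h
      have h' := h.1
      simp only [Complex.sub_re, Complex.one_re, ← Complex.ofReal_natCast, ← Complex.ofReal_inv,
        ← Complex.ofReal_mul, Complex.ofReal_re] at h'
      rw [h']
      positivity
    have hT : ∑ c ∈ S.aF, ‖χ.1 (c : G)‖ ^ 2 ≤
        (S.aF.card : ℝ) * (Cfsg.charDegree χ.1 : ℝ) ^ 2 := by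
      rw [← nsmul_eq_mul, ← Finset.sum_const]
      exact Finset.sum_le_sum fun c _ => pow_le_pow_left₀ (norm_nonneg _)
        (CfsgLib.CharBasics.norm_le (isChar_irr χ) _) 2
    have he : (0 : ℝ) < S.e := Nat.cast_pos.mpr S.e_pos
    have hC : (0 : ℝ) < Nat.card S.C := Nat.cast_pos.mpr Nat.card_pos
    have h1 : (Nat.card S.C : ℝ)⁻¹ * ∑ c ∈ S.aF, ‖χ.1 (c : G)‖ ^ 2 < 1 := by
      rw [inv_mul_lt_iff₀ hC, mul_one]
      have hcard : (S.aF.card : ℝ) * Nat.card S.P = Nat.card S.C := by exact_mod_cast S.card_aF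
      have hd' : (Cfsg.charDegree χ.1 : ℝ) ^ 2 < Nat.card S.P := by exact_mod_cast hd
      have hpos' : (0 : ℝ) < S.aF.card := by
        exact_mod_cast Finset.card_pos.mpr ⟨1, S.mem_aF.mpr (map_one _)⟩
      nlinarith
    have h2 : (M : ℝ) < (S.e : ℝ) + 1 := by
      have h3 : (S.e : ℝ)⁻¹ *
          ((M : ℝ) - (Nat.card S.C : ℝ)⁻¹ * ∑ c ∈ S.aF, ‖χ.1 (c : G)‖ ^ 2) ≤ 1 := by linarith
      rw [inv_mul_le_iff₀ he, mul_one] at h3
      linarith
    exact_mod_cast h2
  have hge : ∀ σ ∈ (Finset.univ : Finset S.Ir), S.ind ξ σ ≤ S.mC χ.1 σ * S.mC χ.1 σ := by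
    intro σ _
    by_cases h : S.Rel ξ σ
    · rw [S.ind_eq_one h, S.mC_rel (isChar_irr χ) h]; nlinarith
    · rw [S.ind_eq_zero h]; exact Nat.zero_le _
  have heq : ∑ σ : S.Ir, S.ind ξ σ = ∑ σ : S.Ir, S.mC χ.1 σ * S.mC χ.1 σ := by
    refine le_antisymm (Finset.sum_le_sum hge) ?_
    rw [S.sum_ind hξ]; omega
  have hm' : ∀ σ, S.mC χ.1 σ = S.ind ξ σ := by
    intro σ
    have h1 := (Finset.sum_eq_sum_iff_of_le hge).mp heq σ (Finset.mem_univ _)
    by_cases h : S.Rel ξ σ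
    · rw [S.ind_eq_one h] at h1 ⊢
      exact Nat.eq_one_of_mul_eq_one_left h1.symm
    · rw [S.ind_eq_zero h] at h1 ⊢
      exact (mul_self_eq_zero.mp h1.symm)
  refine ⟨ξ, hξ, hm', ?_⟩
  rw [← S.mC_deg (isChar_irr χ), ← S.sum_ind hξ, Finset.sum_mul]
  refine Finset.sum_congr rfl fun σ _ => ?_
  rw [hm' σ]
  by_cases h : S.Rel ξ σ
  · rw [S.rel_deg h]
  · rw [S.ind_eq_zero h, zero_mul, zero_mul]

/-- The arithmetic mean bound. -/
theorem mean_bound (η : Cfsg.IrrCharacter G) (hne : η ≠ CfsgLib.CharBasics.oneChar) {y : ℕ}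
    (hy : Cfsg.charDegree η.1 = y) (hA : ∀ c ∈ S.aF, η.1 (c : G) = (y : ℂ))
    (hsq : ∑ σ : S.Ir, S.mC η.1 σ * S.mC η.1 σ = y)
    (hone : S.mC η.1 CfsgLib.CharBasics.oneChar = 0)
    (hq : Nat.card S.P = y + 1 + S.e) : 2 * y ≤ S.e + S.e * S.e := by
  classical
  have hy1 : 1 ≤ y := hy ▸ CfsgLib.CharBasics.charDegree_pos η.2
  have hcard : (S.aF.card : ℝ) * Nat.card S.P = Nat.card S.C := by exact_mod_cast S.card_aF
  have hC : (0 : ℝ) < Nat.card S.C := Nat.cast_pos.mpr Nat.card_pos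
  have hP : (0 : ℝ) < Nat.card S.P := Nat.cast_pos.mpr Nat.card_pos
  have he : (0 : ℝ) < S.e := Nat.cast_pos.mpr S.e_pos
  have hG : (0 : ℝ) < Nat.card G := Nat.cast_pos.mpr Nat.card_pos
  have hratio : (Nat.card S.C : ℂ)⁻¹ * (S.aF.card : ℂ) = (Nat.card S.P : ℂ)⁻¹ := by
    have h1 : (S.aF.card : ℂ) * Nat.card S.P = Nat.card S.C := by exact_mod_cast S.card_aF
    have h2 : (Nat.card S.C : ℂ) ≠ 0 := Nat.cast_ne_zero.mpr Nat.card_pos.ne'
    have h3 : (Nat.card S.P : ℂ) ≠ 0 := Nat.cast_ne_zero.mpr Nat.card_pos.ne'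
    field_simp
    linear_combination h1
  -- the two inner products
  have hN : Cfsg.classInner (S.offA η.1) (S.offA η.1) =
      (y : ℂ) - (Nat.card S.P : ℂ)⁻¹ * (y * y) := by
    rw [← S.inner_offA_res, S.inner_offA, classInner_sum_sq (S.isCharacter_res (isChar_irr η)),
      show (∑ σ : S.Ir, mult (S.res η.1) σ * mult (S.res η.1) σ) = y from hsq, ← hratio]
    congr 1
    rw [mul_assoc, Finset.sum_congr rfl (g := fun _ => (y : ℂ) * y) (fun c hc => by
      show η.1 (c : G) * conj (η.1 (c : G)) = _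
      rw [hA c hc, Complex.conj_natCast]), Finset.sum_const, nsmul_eq_mul]
  have hL : Cfsg.classInner (S.offA η.1) (fun _ : S.C => (1 : ℂ)) =
      -((Nat.card S.P : ℂ)⁻¹ * y) := by
    have h0 : Cfsg.classInner (S.res η.1) (fun _ : S.C => (1 : ℂ)) = 0 := by
      have := S.mC_spec (isChar_irr η) CfsgLib.CharBasics.oneChar
      rw [hone, Nat.cast_zero] at this
      exact this
    rw [S.inner_offA, h0, zero_sub, ← hratio, mul_assoc, Finset.sum_congr rfl
      (g := fun _ => (y : ℂ)) (fun c hc => by rw [hA c hc, map_one, mul_one]), Finset.sum_const,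
      nsmul_eq_mul]
  have hsum : ∑ g : G, S.defect η.1 g =
      (((Nat.card G : ℝ) * (y / (Nat.card S.P * S.e)) : ℝ) : ℂ) := by
    have h1 : Cfsg.classInner (S.defect η.1) (fun _ => (1 : ℂ)) =
        (S.e : ℂ)⁻¹ * ((Nat.card S.P : ℂ)⁻¹ * y) := by
      have h0 : Cfsg.classInner η.1 (fun _ : G => (1 : ℂ)) = 0 :=
        CfsgLib.CharBasics.classInner_ne η.2 CfsgLib.CharBasics.isIrrCharacter_one
          (fun h => hne (Subtype.ext h))
      rw [defect, CfsgLib.Clifford.classInner_sub_left, h0, CfsgLib.CharBasics.classInner_smul_left,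
        S.classInner_ind _ (fun _ _ => rfl), hL]
      ring
    rw [CfsgLib.CharBasics.classInner_one] at h1
    have h2 : (Nat.card G : ℂ) ≠ 0 := Nat.cast_ne_zero.mpr Nat.card_pos.ne'
    have h3 : (Nat.card S.P : ℂ) ≠ 0 := Nat.cast_ne_zero.mpr Nat.card_pos.ne'
    have h4 := S.e_ne
    push_cast
    field_simp at h1 ⊢
    linear_combination h1
  have hsq' : ∑ g : G, ‖S.defect η.1 g‖ ^ 2 = (Nat.card G : ℝ) *
      (1 - (S.e : ℝ)⁻¹ * ((y : ℝ) - (Nat.card S.P : ℝ)⁻¹ * (y * y))) := by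
    have h := classInner_self_real (S.defect η.1)
    rw [S.defect_norm, hN] at h
    have h' : (1 - (S.e : ℝ)⁻¹ * ((y : ℝ) - (Nat.card S.P : ℝ)⁻¹ * (y * y))) =
        (Nat.card G : ℝ)⁻¹ * ∑ g : G, ‖S.defect η.1 g‖ ^ 2 := by
      have h5 : ((1 - (S.e : ℝ)⁻¹ * ((y : ℝ) - (Nat.card S.P : ℝ)⁻¹ * (y * y)) : ℝ) : ℂ) =
          (((Nat.card G : ℝ)⁻¹ * ∑ g : G, ‖S.defect η.1 g‖ ^ 2 : ℝ) : ℂ) := by
        rw [← h]; push_cast; rfl
      exact_mod_cast h5
    rw [h', mul_inv_cancel_left₀ hG.ne']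
  -- the closed set
  set R : Finset G := Finset.univ.filter (fun g => g ≠ 1 ∧ η.1 g ≠ 0 ∧
    ∀ c : S.C, S.proj c ≠ 1 → ∀ x : G, x⁻¹ * g * x ≠ c) with hR
  have h1R : ∀ c : S.C, S.proj c ≠ 1 → ∀ x : G, x⁻¹ * (1 : G) * x ≠ c := by
    intro c hc x h
    apply hc
    have : c = 1 := Subtype.ext (by rw [← h]; simp)
    rw [this, map_one]
  have hd1 : S.defect η.1 1 = (y : ℂ) := by
    rw [S.defect_of_not h1R, CfsgLib.CharBasics.apply_one (isChar_irr η), hy]
  have hout : ∀ g ∈ (Finset.univ : Finset G), g ∉ insert 1 R → S.defect η.1 g = 0 := by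
    intro g _ hg
    rw [Finset.mem_insert, not_or] at hg
    by_cases hcj : ∀ c : S.C, S.proj c ≠ 1 → ∀ x : G, x⁻¹ * g * x ≠ c
    · rw [S.defect_of_not hcj]
      by_contra h0
      exact hg.2 (Finset.mem_filter.mpr ⟨Finset.mem_univ _, hg.1, h0, hcj⟩)
    · push Not at hcj
      obtain ⟨c, hc, x, hx⟩ := hcj
      exact S.defect_zero (CfsgLib.CharBasics.isClassFunction (isChar_irr η)) hc hx
  have h1notR : (1 : G) ∉ R := fun h => (Finset.mem_filter.mp h).2.1 rfl
  have hsumR : ∑ g : G, S.defect η.1 g = (y : ℂ) + ∑ g ∈ R, η.1 g := by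
    rw [← Finset.sum_subset (Finset.subset_univ (insert 1 R)) hout, Finset.sum_insert h1notR, hd1]
    exact congrArg _ (Finset.sum_congr rfl fun g hg =>
      S.defect_of_not (Finset.mem_filter.mp hg).2.2.2)
  have hsqR : ∑ g : G, ‖S.defect η.1 g‖ ^ 2 = (y : ℝ) ^ 2 + ∑ g ∈ R, ‖η.1 g‖ ^ 2 := by
    rw [← Finset.sum_subset (Finset.subset_univ (insert 1 R))
      (fun g h1 h2 => by rw [hout g h1 h2]; simp), Finset.sum_insert h1notR, hd1,
      Complex.norm_natCast]
    exact congrArg _ (Finset.sum_congr rfl fun g hg => by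
      rw [S.defect_of_not (Finset.mem_filter.mp hg).2.2.2])
  have hcardR : (R.card : ℝ) ≤ ∑ g ∈ R, ‖η.1 g‖ ^ 2 := by
    refine CfsgLib.CharBasics.card_le_sum_normSq Nat.card_pos.ne' dvd_rfl
      (CfsgLib.CharBasics.cycPoly_character (isChar_irr η)) R (fun g hg j hj => ?_)
      (fun g hg => (Finset.mem_filter.mp hg).2.2.1)
    obtain ⟨-, hg1, hg0, hgc⟩ := Finset.mem_filter.mp hg
    have hord : Nat.Coprime j (orderOf g) := hj.coprime_dvd_right (orderOf_dvd_natCard g)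
    obtain ⟨i, hi⟩ := exists_pow_eq_self_of_coprime hord
    refine Finset.mem_filter.mpr ⟨Finset.mem_univ _, fun h => hg1 ?_,
      (CfsgLib.CharBasics.cycPoly_character (isChar_irr η)).ne_zero Nat.card_pos.ne' hj hg0,
      fun c hc x hx => ?_⟩
    · rw [← hi, h, one_pow]
    · have hx2 : x⁻¹ * g * x = ((c ^ i : S.C) : G) := by
        conv_lhs => rw [← hi]
        rw [conj_pow', hx, SubmonoidClass.coe_pow]
      refine hgc (c ^ i) (fun hci => hc ?_) x hx2
      have hcj : c = (c ^ i) ^ j := Subtype.ext (by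
        rw [SubmonoidClass.coe_pow, ← hx2, ← conj_pow', hx])
      rw [hcj, map_pow, hci, one_pow]
  set Q : ℝ := ∑ g ∈ R, ‖η.1 g‖ ^ 2
  have hQ : ‖∑ g ∈ R, η.1 g‖ ≤ Q := by
    refine (norm_sum_le _ _).trans ?_
    have hCS := Finset.sum_mul_sq_le_sq_mul_sq R (fun _ => (1 : ℝ)) (fun g => ‖η.1 g‖)
    simp only [one_mul, one_pow, Finset.sum_const, nsmul_eq_mul, mul_one] at hCS
    have h0 : (0 : ℝ) ≤ Q := Finset.sum_nonneg fun g _ => by positivity
    have h1 : (∑ g ∈ R, ‖η.1 g‖) ^ 2 ≤ Q ^ 2 := hCS.trans (by rw [sq Q]; gcongr)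
    exact (sq_le_sq₀ (Finset.sum_nonneg fun g _ => norm_nonneg _) h0).mp h1
  have hre : (Nat.card G : ℝ) * (y / (Nat.card S.P * S.e)) - y ≤ Q := by
    have h := hsum.symm.trans hsumR
    have h2 : ∑ g ∈ R, η.1 g =
        (((Nat.card G : ℝ) * (y / (Nat.card S.P * S.e)) - y : ℝ) : ℂ) := by
      rw [Complex.ofReal_sub, h, Complex.ofReal_natCast]; ring
    rw [h2, Complex.norm_real, Real.norm_eq_abs] at hQ
    exact (le_abs_self _).trans hQ
  have hQeq : Q = (Nat.card G : ℝ) *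
      (1 - (S.e : ℝ)⁻¹ * ((y : ℝ) - (Nat.card S.P : ℝ)⁻¹ * (y * y))) - (y : ℝ) ^ 2 := by
    rw [← hsq', hsqR]; ring
  rw [hQeq] at hre
  have hy2 : (y : ℝ) ≤ (y : ℝ) ^ 2 := by
    have : (1 : ℝ) ≤ y := by exact_mod_cast hy1
    nlinarith
  have h5 : (Nat.card G : ℝ) * (y / (Nat.card S.P * S.e)) ≤ (Nat.card G : ℝ) *
      (1 - (S.e : ℝ)⁻¹ * ((y : ℝ) - (Nat.card S.P : ℝ)⁻¹ * (y * y))) := by linarith
  have h6 := le_of_mul_le_mul_left h5 hG
  rw [div_le_iff₀ (mul_pos hP he)] at h6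
  have h7 : (y : ℝ) ≤ (Nat.card S.P : ℝ) * S.e - (Nat.card S.P : ℝ) * y + y * y := by
    refine h6.trans_eq ?_
    field_simp
    ring
  have hqR : (Nat.card S.P : ℝ) = y + 1 + S.e := by exact_mod_cast hq
  rw [hqR] at h7
  have h8 : (2 : ℝ) * y ≤ S.e + (S.e : ℝ) * S.e := by nlinarith
  exact_mod_cast h8

end Setting

end CfsgLib.StrongSylow
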