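import Mathlib
import Cfsg.Agent.Clifford.StrongSylow.Degree
import Cfsg.Agent.BrauerInd.IndAlgebra

/-!
No irreducible character of degree `x ≥ 2` with `x ^ 2 + 1 < |P|` when every nonprincipal
irreducible character is nontrivial on `P`.
-/

set_option linter.unusedSectionVars false

namespace CfsgLib.StrongSylow

universe u

open scoped ComplexConjugate

namespace Setting

variable {G : Type u} [Group G] [Fintype G] (S : Setting G)

/-- The data of the proof. -/
structure Small (S : Setting G) where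
  χ : Cfsg.IrrCharacter G
  θ : Cfsg.IrrCharacter G
  ξ : S.Ir
  z : S.Ir
  nt_ξ : S.NT ξ
  nt_z : S.NT z
  htp : S.tp ξ = S.tp z
  avoid : ∀ σ₁ σ₂, S.Rel ξ σ₁ → S.Rel z σ₂ → S.cc σ₁ ≠ S.cc σ₂
  ne : θ ≠ χ
  hF : Cfsg.indFun S.C (ξ.1 - z.1) = χ.1 - θ.1
  res_χ : ∀ σ, S.mC χ.1 σ = S.ind ξ σ
  res_θ : ∀ σ, S.mC θ.1 σ = S.ind z σ
  deg_θ : Cfsg.charDegree θ.1 = Cfsg.charDegree χ.1
  deg_χ : Cfsg.charDegree χ.1 = S.e * Cfsg.charDegree ξ.1
  big : 2 ≤ Cfsg.charDegree χ.1
  small : Cfsg.charDegree χ.1 ^ 2 + 1 < Nat.card S.P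

theorem exists_small (χ : Cfsg.IrrCharacter G) {y : S.P} (hy : χ.1 (y : G) ≠ χ.1 1)
    (hbig : 2 ≤ Cfsg.charDegree χ.1) (hsmall : Cfsg.charDegree χ.1 ^ 2 + 1 < Nat.card S.P) :
    Nonempty (Small S) := by
  obtain ⟨ξ, hξ, hm, hdeg⟩ := S.small_restrict χ hy (by omega)
  have hpos : 0 < Cfsg.charDegree ξ.1 := CfsgLib.CharBasics.charDegree_pos ξ.2
  have hex : S.e ≤ Cfsg.charDegree χ.1 := by rw [hdeg]; exact Nat.le_mul_of_pos_right _ hpos
  have hq : S.e + 1 < Nat.card S.P := by nlinarith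
  obtain ⟨z, hz, htp, hav⟩ := S.exists_avoid hq hξ
  have hr : ¬ S.Rel ξ z := fun h => hav z z h (S.rel_refl z) rfl
  have hlt : S.mC χ.1 z < S.mC χ.1 ξ := by
    rw [hm, hm, S.ind_eq_zero hr, S.ind_eq_one (S.rel_refl ξ)]; exact one_pos
  obtain ⟨-, -, θ, hne, hF, hd, hmθ⟩ := S.pair_main hξ hz htp.symm hr hlt
  exact ⟨⟨χ, θ, ξ, z, hξ, hz, htp.symm, hav, hne, hF, hm,
    fun σ => by have := hmθ σ; rw [hm σ] at this; omega, hd, hdeg, hbig, hsmall⟩⟩

namespace Small

variable {S} (D : Small S)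

/-- The degree. -/
noncomputable def x : ℕ := Cfsg.charDegree D.χ.1

theorem e_le (D : Small S) : S.e ≤ D.x := by
  rw [x, D.deg_χ]
  exact Nat.le_mul_of_pos_right _ (CfsgLib.CharBasics.charDegree_pos D.ξ.2)

theorem hq (D : Small S) : S.e + 1 < Nat.card S.P := by
  have := D.e_le
  have := D.small
  have := D.big
  rw [x] at *
  nlinarith

theorem two_e (D : Small S) : D.x ^ 2 + 2 * S.e + 2 < 2 * Nat.card S.P := by
  have := D.e_le
  have := D.small
  have := D.big
  rw [x] at *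
  nlinarith

/-- `χ χ̄`. -/
noncomputable def psiI : G → ℂ := fun g => D.χ.1 g * conj (D.χ.1 g)

/-- `χ θ̄`. -/
noncomputable def psiJ : G → ℂ := fun g => D.χ.1 g * conj (D.θ.1 g)

/-- `χ χ̄ - χ θ̄`. -/
noncomputable def Dfun : G → ℂ := D.psiI - D.psiJ

theorem char_I : Cfsg.IsCharacter G D.psiI :=
  CfsgLib.CharBasics.isCharacter_mul (isChar_irr D.χ)
    (CfsgLib.CharBasics.isCharacter_star (isChar_irr D.χ))

theorem char_J : Cfsg.IsCharacter G D.psiJ :=
  CfsgLib.CharBasics.isCharacter_mul (isChar_irr D.χ)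
    (CfsgLib.CharBasics.isCharacter_star (isChar_irr D.θ))

theorem classFun_D : Cfsg.IsClassFunction G D.Dfun := fun g h => by
  show D.psiI (h * g * h⁻¹) - D.psiJ (h * g * h⁻¹) = D.psiI g - D.psiJ g
  rw [CfsgLib.CharBasics.isClassFunction D.char_I g h,
    CfsgLib.CharBasics.isClassFunction D.char_J g h]

theorem deg_I : Cfsg.charDegree D.psiI = D.x ^ 2 := by
  have h : ((Cfsg.charDegree D.psiI : ℕ) : ℂ) = ((D.x ^ 2 : ℕ) : ℂ) := by
    rw [← CfsgLib.CharBasics.apply_one D.char_I, psiI,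
      CfsgLib.CharBasics.apply_one (isChar_irr D.χ), Complex.conj_natCast, x]
    push_cast; ring
  exact_mod_cast h

theorem deg_J : Cfsg.charDegree D.psiJ = D.x ^ 2 := by
  have h : ((Cfsg.charDegree D.psiJ : ℕ) : ℂ) = ((D.x ^ 2 : ℕ) : ℂ) := by
    rw [← CfsgLib.CharBasics.apply_one D.char_J, psiJ,
      CfsgLib.CharBasics.apply_one (isChar_irr D.χ),
      CfsgLib.CharBasics.apply_one (isChar_irr D.θ), D.deg_θ, Complex.conj_natCast, x]
    push_cast; ring
  exact_mod_cast h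

theorem apply_A {c : S.C} (hc : S.proj c = 1) : D.θ.1 (c : G) = D.χ.1 (c : G) := by
  have h1 := congrFun D.hF (c : G)
  rw [S.ind_restrict (S.vanA_pair D.htp), conjSum, Pi.sub_apply,
    Finset.sum_eq_zero (fun y hy => S.vanA_pair D.htp _
      ((S.proj_cj_eq_one (S.mem_nF.mp hy) c).mpr hc)), mul_zero] at h1
  exact (sub_eq_zero.mp h1.symm).symm

/-- The function inducing `Dfun`. -/
noncomputable def g : S.C → ℂ := fun c => D.χ.1 (c : G) * conj ((D.ξ.1 - D.z.1) c)

theorem vanA_g : S.VanA D.g := fun c hc => by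
  rw [g, S.vanA_pair D.htp c hc, map_zero, mul_zero]

theorem Dfun_eq : D.Dfun = Cfsg.indFun S.C D.g := by
  have h1 : D.Dfun = D.χ.1 * (fun a => conj (Cfsg.indFun S.C (D.ξ.1 - D.z.1) a)) := by
    funext a
    show D.χ.1 a * conj (D.χ.1 a) - D.χ.1 a * conj (D.θ.1 a) = D.χ.1 a * conj _
    rw [congrFun D.hF a, Pi.sub_apply, map_sub]; ring
  have h2 : (fun a => conj (Cfsg.indFun S.C (D.ξ.1 - D.z.1) a)) =
      Cfsg.indFun S.C (fun c => conj ((D.ξ.1 - D.z.1) c)) := by
    funext a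
    simp only [Cfsg.indFun, map_mul, map_inv₀, Complex.conj_natCast, map_sum]
    congr 1
    refine Finset.sum_congr rfl fun y _ => ?_
    by_cases h : y⁻¹ * a * y ∈ S.C
    · rw [CfsgLib.IndFun.extendByZero_mem _ h, CfsgLib.IndFun.extendByZero_mem _ h]
    · rw [CfsgLib.IndFun.extendByZero_not_mem _ h, CfsgLib.IndFun.extendByZero_not_mem _ h,
        map_zero]
  rw [h1, h2, CfsgLib.BrauerInd.mul_indFun _ _
    (CfsgLib.CharBasics.isClassFunction (isChar_irr D.χ))]
  rfl

theorem res_D : S.res D.Dfun = S.conjSum D.g := by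
  rw [D.Dfun_eq]
  exact funext (S.ind_restrict D.vanA_g)

/-- The coefficients of the restriction of `Dfun`. -/
noncomputable def phi (σ : S.Ir) : ℤ := (S.mC D.psiI σ : ℤ) - S.mC D.psiJ σ

/-- The coefficients of `Dfun`. -/
noncomputable def coef (η : Cfsg.IrrCharacter G) : ℤ :=
  (mult D.psiI η : ℤ) - mult D.psiJ η

theorem inner_res_D (σ : S.Ir) : Cfsg.classInner (S.res D.Dfun) σ.1 = (D.phi σ : ℂ) := by
  rw [show S.res D.Dfun = S.res D.psiI - S.res D.psiJ from rfl,
    CfsgLib.Clifford.classInner_sub_left, S.mC_spec D.char_I, S.mC_spec D.char_J, phi]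
  push_cast; rfl

theorem inner_D (η : Cfsg.IrrCharacter G) :
    Cfsg.classInner D.Dfun η.1 = (D.coef η : ℂ) := by
  rw [Dfun, CfsgLib.Clifford.classInner_sub_left, mult_spec D.char_I, mult_spec D.char_J, coef]
  push_cast; rfl

theorem phi_rel {ρ σ : S.Ir} (h : S.Rel ρ σ) : D.phi σ = D.phi ρ := by
  rw [phi, phi, S.mC_rel D.char_I h, S.mC_rel D.char_J h]

theorem sum_phi_mC (η : Cfsg.IrrCharacter G) :
    (S.e : ℤ) * D.coef η = ∑ σ : S.Ir, D.phi σ * S.mC η.1 σ := by
  have h1 : Cfsg.classInner (S.res D.Dfun) (S.res η.1) = (S.e : ℂ) * (D.coef η : ℂ) := by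
    rw [D.res_D, S.classInner_conjSum_invariant _
      (S.invariant_restrict (CfsgLib.CharBasics.isClassFunction (isChar_irr η))), ← D.inner_D,
      D.Dfun_eq, S.classInner_ind _ (CfsgLib.CharBasics.isClassFunction (isChar_irr η))]
  rw [classInner_eq_sum_mult _ (S.isCharacter_res (isChar_irr η))] at h1
  simp only [D.inner_res_D] at h1
  exact_mod_cast h1.symm

theorem sum_phi_sq [Fintype (Cfsg.IrrCharacter G)] :
    ∑ σ : S.Ir, D.phi σ * D.phi σ = (S.e : ℤ) * ∑ η, D.coef η * D.coef η := by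
  have h2 : Cfsg.classInner (S.res D.Dfun) (S.res D.Dfun) =
      ((∑ σ : S.Ir, D.phi σ * D.phi σ : ℤ) : ℂ) := by
    nth_rewrite 2 [show S.res D.Dfun = S.res D.psiI - S.res D.psiJ from rfl]
    rw [classInner_sub_right, classInner_eq_sum_mult _ (S.isCharacter_res D.char_I),
      classInner_eq_sum_mult _ (S.isCharacter_res D.char_J), ← Finset.sum_sub_distrib]
    push_cast
    refine Finset.sum_congr rfl fun σ _ => ?_
    rw [D.inner_res_D, phi]
    push_cast
    rw [mC, mC]; ring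
  have h3 : Cfsg.classInner D.Dfun D.Dfun = ((∑ η, D.coef η * D.coef η : ℤ) : ℂ) := by
    nth_rewrite 2 [Dfun]
    rw [classInner_sub_right, classInner_eq_sum_mult _ D.char_I,
      classInner_eq_sum_mult _ D.char_J, ← Finset.sum_sub_distrib]
    push_cast
    refine Finset.sum_congr rfl fun η _ => ?_
    rw [D.inner_D, coef]
    push_cast; ring
  have h4 : Cfsg.classInner (S.res D.Dfun) (S.res D.Dfun) =
      (S.e : ℂ) * Cfsg.classInner D.Dfun D.Dfun := by
    nth_rewrite 1 [D.res_D]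
    rw [S.classInner_conjSum_invariant _ (S.invariant_restrict D.classFun_D),
      ← S.classInner_ind D.g D.classFun_D, ← D.Dfun_eq]
  rw [h2, h3] at h4
  exact_mod_cast h4

theorem classInner_prod_zero {σ₁ σ₂ σ : S.Ir} (h : S.cc σ₁ ≠ S.cc σ₂) (hσ : S.cc σ = 1) :
    Cfsg.classInner (fun c => σ₁.1 c * conj (σ₂.1 c)) σ.1 = 0 := by
  obtain ⟨y, hy⟩ : ∃ y, S.cc σ₁ y ≠ S.cc σ₂ y := by
    by_contra hc
    push Not at hc
    exact h (MonoidHom.ext hc)
  rw [CfsgLib.CharBasics.classInner_eq]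
  set T := ∑ c : S.C, σ₁.1 c * conj (σ₂.1 c) * conj (σ.1 c) with hT
  suffices hT0 : T = 0 by rw [hT0, mul_zero]
  have h1 : T = (S.cc σ₁ y : ℂ) * conj (S.cc σ₂ y : ℂ) * T := by
    rw [hT, Finset.mul_sum]
    conv_lhs => rw [← Equiv.sum_comp (Equiv.mulLeft (S.incl y))]
    refine Finset.sum_congr rfl fun c _ => ?_
    simp only [Equiv.coe_mulLeft, S.apply_incl_mul, hσ, MonoidHom.one_apply, Units.val_one,
      one_mul, map_mul]
    ring
  by_contra hne
  apply hy
  have h2 : (S.cc σ₁ y : ℂ) * conj (S.cc σ₂ y : ℂ) = 1 :=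
    mul_right_cancel₀ hne (by rw [one_mul]; exact h1.symm)
  have hn : ‖(S.cc σ₂ y : ℂ)‖ = 1 := by
    refine Complex.norm_eq_one_of_pow_eq_one (n := Nat.card S.P) ?_ Nat.card_pos.ne'
    rw [← Units.val_pow_eq_pow_val, ← map_pow, pow_card_eq_one', map_one, Units.val_one]
  refine Units.ext ?_
  calc (S.cc σ₁ y : ℂ) = (S.cc σ₁ y : ℂ) * (conj (S.cc σ₂ y : ℂ) * (S.cc σ₂ y : ℂ)) := by
        rw [Complex.conj_mul', hn]; simp
    _ = _ := by rw [← mul_assoc, h2, one_mul]

theorem mC_J_zero {σ : S.Ir} (hσ : S.cc σ = 1) : S.mC D.psiJ σ = 0 := by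
  have h : S.res D.psiJ = ∑ σ₁ : S.Ir, ∑ σ₂ : S.Ir,
      ((S.ind D.ξ σ₁ * S.ind D.z σ₂ : ℕ) : ℂ) • (fun c => σ₁.1 c * conj (σ₂.1 c)) := by
    funext c
    have h1 := expand (S.isCharacter_res (isChar_irr D.χ)) c
    have h2 := expand (S.isCharacter_res (isChar_irr D.θ)) c
    simp only [res] at h1 h2
    show D.χ.1 (c : G) * conj (D.θ.1 (c : G)) = _
    rw [h1, h2, map_sum, Finset.sum_mul_sum, Finset.sum_apply]
    refine Finset.sum_congr rfl fun a _ => ?_
    rw [Finset.sum_apply]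
    refine Finset.sum_congr rfl fun b _ => ?_
    rw [show mult (fun c : S.C => D.χ.1 c) a = S.ind D.ξ a from D.res_χ a,
      show mult (fun c : S.C => D.θ.1 c) b = S.ind D.z b from D.res_θ b,
      Pi.smul_apply, smul_eq_mul, map_mul, Complex.conj_natCast]
    push_cast; ring
  have h3 := S.mC_spec D.char_J σ
  rw [h, CfsgLib.CharBasics.classInner_sum_left, Finset.sum_eq_zero (fun a _ => ?_)] at h3
  · exact_mod_cast h3.symm
  rw [CfsgLib.CharBasics.classInner_sum_left]
  refine Finset.sum_eq_zero fun b _ => ?_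
  rw [CfsgLib.CharBasics.classInner_smul_left]
  by_cases ha : S.Rel D.ξ a
  · by_cases hb : S.Rel D.z b
    · rw [classInner_prod_zero (D.avoid a b ha hb) hσ, mul_zero]
    · rw [S.ind_eq_zero hb]; simp
  · rw [S.ind_eq_zero ha]; simp

theorem phi_of_trivial {σ : S.Ir} (hσ : S.cc σ = 1) : D.phi σ = S.mC D.psiI σ := by
  rw [phi, D.mC_J_zero hσ]; simp

theorem cc_one_C : S.cc (CfsgLib.CharBasics.oneChar : S.Ir) = 1 :=
  MonoidHom.ext fun y => Units.ext (by simp [cc_val, CfsgLib.CharBasics.oneChar_apply])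

theorem mC_I_one : S.mC D.psiI CfsgLib.CharBasics.oneChar = S.e := by
  have h := S.mC_spec D.char_I CfsgLib.CharBasics.oneChar
  have h1 : Cfsg.classInner (S.res D.psiI) (CfsgLib.CharBasics.oneChar : S.Ir).1 =
      Cfsg.classInner (S.res D.χ.1) (S.res D.χ.1) := by
    rw [CfsgLib.CharBasics.classInner_eq, CfsgLib.CharBasics.classInner_eq]
    simp [psiI, CfsgLib.CharBasics.oneChar_apply]
  rw [h1, classInner_sum_sq (S.isCharacter_res (isChar_irr D.χ))] at h
  have h2 : ∑ σ : S.Ir, mult (S.res D.χ.1) σ * mult (S.res D.χ.1) σ = S.e := by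
    rw [← S.sum_ind D.nt_ξ]
    refine Finset.sum_congr rfl fun σ _ => ?_
    rw [show mult (S.res D.χ.1) σ = S.ind D.ξ σ from D.res_χ σ]
    by_cases hr : S.Rel D.ξ σ
    · rw [S.ind_eq_one hr]
    · rw [S.ind_eq_zero hr]
  rw [h2] at h
  exact_mod_cast h.symm

theorem mult_I_one : mult D.psiI CfsgLib.CharBasics.oneChar = 1 := by
  have h := mult_spec D.char_I CfsgLib.CharBasics.oneChar
  have h1 : Cfsg.classInner D.psiI (CfsgLib.CharBasics.oneChar : Cfsg.IrrCharacter G).1 =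
      Cfsg.classInner D.χ.1 D.χ.1 := by
    rw [CfsgLib.CharBasics.classInner_eq, CfsgLib.CharBasics.classInner_eq]
    simp [psiI, CfsgLib.CharBasics.oneChar_apply]
  rw [h1, CfsgLib.CharBasics.classInner_self D.χ.2] at h
  exact_mod_cast h.symm

theorem mult_J_one : mult D.psiJ CfsgLib.CharBasics.oneChar = 0 := by
  have h := mult_spec D.char_J CfsgLib.CharBasics.oneChar
  have h1 : Cfsg.classInner D.psiJ (CfsgLib.CharBasics.oneChar : Cfsg.IrrCharacter G).1 =
      Cfsg.classInner D.χ.1 D.θ.1 := by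
    rw [CfsgLib.CharBasics.classInner_eq, CfsgLib.CharBasics.classInner_eq]
    simp [psiJ, CfsgLib.CharBasics.oneChar_apply]
  rw [h1, CfsgLib.CharBasics.classInner_ne D.χ.2 D.θ.2 (fun he => D.ne (Subtype.ext he).symm)] at h
  exact_mod_cast h.symm

theorem sum_phi_cls {τ : S.Ir} (hτ : S.cc τ = 1) : ∑ σ ∈ S.cls τ, D.phi σ = -D.phi τ := by
  classical
  have hall : ∑ μ : S.Tw, D.phi (S.twist μ τ) = 0 := by
    have h : ((∑ μ : S.Tw, D.phi (S.twist μ τ) : ℤ) : ℂ) = 0 := by
      push_cast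
      rw [Finset.sum_congr rfl (fun μ _ => (D.inner_res_D (S.twist μ τ)).symm)]
      simp only [CfsgLib.CharBasics.classInner_eq, ← Finset.mul_sum]
      rw [Finset.sum_comm]
      refine mul_eq_zero_of_right _ (Finset.sum_eq_zero fun c _ => ?_)
      rw [← Finset.mul_sum]
      by_cases hc : S.proj c = 1
      · refine mul_eq_zero_of_left ?_ _
        show D.psiI (c : G) - D.psiJ (c : G) = 0
        rw [psiI, psiJ, D.apply_A hc, sub_self]
      · refine mul_eq_zero_of_right _ ?_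
        rw [← map_sum]
        simp only [S.twist_apply]
        rw [← Finset.sum_mul, S.sum_tw_apply hc, zero_mul, map_zero]
    exact_mod_cast h
  rw [S.cls_eq_image hτ, Finset.sum_image fun a _ b _ hab => S.twist_injective τ hab]
  rw [← Finset.add_sum_erase _ _ (Finset.mem_univ 1), S.twist_one] at hall
  linarith

theorem mult_le (Ψ : G → ℂ) (hΨ : Cfsg.IsCharacter G Ψ) (η : Cfsg.IrrCharacter G) (σ : S.Ir) :
    mult Ψ η * S.mC η.1 σ ≤ S.mC Ψ σ := by
  classical
  haveI := Fintype.ofFinite (Cfsg.IrrCharacter G)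
  rw [S.mC_decomp hΨ σ]
  exact Finset.single_le_sum (f := fun η' : Cfsg.IrrCharacter G => mult Ψ η' * S.mC η'.1 σ)
    (fun _ _ => Nat.zero_le _) (Finset.mem_univ η)

theorem card_le_dim {Ψ : G → ℂ} (hΨ : Cfsg.IsCharacter G Ψ) {η : Cfsg.IrrCharacter G}
    (hη : mult Ψ η ≠ 0) (U : Finset S.Ir) (hU : ∀ σ ∈ U, S.mC η.1 σ ≠ 0) :
    U.card ≤ ∑ σ ∈ U, S.mC Ψ σ * Cfsg.charDegree σ.1 := by
  rw [Finset.card_eq_sum_ones]
  refine Finset.sum_le_sum fun σ hσ => ?_
  have h1 := mult_le (S := S) Ψ hΨ η σ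
  have h2 := CfsgLib.CharBasics.charDegree_pos σ.2
  have h3 := Nat.pos_of_ne_zero (hU σ hσ)
  have h4 := Nat.pos_of_ne_zero hη
  have h5 : 1 ≤ S.mC Ψ σ := le_trans (Nat.mul_pos h4 h3) h1
  exact Nat.mul_pos h5 h2

theorem card_le_J {η : Cfsg.IrrCharacter G} (hη : mult D.psiJ η ≠ 0) (U : Finset S.Ir)
    (hU : ∀ σ ∈ U, S.mC η.1 σ ≠ 0) : U.card ≤ D.x ^ 2 := by
  refine (card_le_dim (S := S) D.char_J hη U hU).trans ?_
  rw [← D.deg_J, ← S.mC_deg D.char_J]
  exact Finset.sum_le_sum_of_subset (Finset.subset_univ U)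

theorem card_le_I {η : Cfsg.IrrCharacter G} (hη : mult D.psiI η ≠ 0) (U : Finset S.Ir)
    (hU : ∀ σ ∈ U, S.mC η.1 σ ≠ 0) (hnt : ∀ σ ∈ U, S.NT σ) : U.card + S.e ≤ D.x ^ 2 := by
  classical
  have h1 := card_le_dim (S := S) D.char_I hη U hU
  have hnot : (CfsgLib.CharBasics.oneChar : S.Ir) ∉ U := fun h => hnt _ h cc_one_C
  have hd : Cfsg.charDegree (CfsgLib.CharBasics.oneChar : S.Ir).1 = 1 := by
    have := CfsgLib.CharBasics.apply_one
      (CfsgLib.CharBasics.isCharacter_of_irr (CfsgLib.CharBasics.oneChar : S.Ir).2)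
    rw [CfsgLib.CharBasics.oneChar_apply] at this
    exact_mod_cast this.symm
  have h2 := Finset.sum_le_sum_of_subset (f := fun σ => S.mC D.psiI σ * Cfsg.charDegree σ.1)
    (Finset.subset_univ (insert (CfsgLib.CharBasics.oneChar : S.Ir) U))
  rw [Finset.sum_insert hnot, S.mC_deg D.char_I, D.deg_I, D.mC_I_one, hd, mul_one] at h2
  exact le_trans (Nat.add_le_add_right h1 _) (by rw [add_comm] at h2; exact h2)

open scoped Classical in
/-- The members of a twist class missing from `η`. -/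
noncomputable def zset (η : Cfsg.IrrCharacter G) (τ : S.Ir) : Finset S.Ir :=
  (S.cls τ).filter (fun σ => S.mC η.1 σ = 0)

open scoped Classical in
/-- The members of a twist class occurring in `η`. -/
noncomputable def sset (η : Cfsg.IrrCharacter G) (τ : S.Ir) : Finset S.Ir :=
  (S.cls τ).filter (fun σ => S.mC η.1 σ ≠ 0)

theorem card_split (η : Cfsg.IrrCharacter G) {τ : S.Ir} (hτ : S.cc τ = 1) :
    (zset (S := S) η τ).card + (sset η τ).card = Nat.card S.P - 1 := by
  classical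
  rw [← S.card_cls hτ, zset, sset]
  exact Finset.card_filter_add_card_filter_not _

theorem exists_zero (D : Small S) {Ψ : G → ℂ} (hΨ : Ψ = D.psiI ∨ Ψ = D.psiJ)
    {η : Cfsg.IrrCharacter G} (hη : mult Ψ η ≠ 0) {τ : S.Ir} (hτ : S.cc τ = 1) :
    (zset (S := S) η τ).Nonempty := by
  rw [← Finset.card_pos]
  have h1 := card_split (S := S) η hτ
  have h2 : (sset η τ).card ≤ D.x ^ 2 := by
    rcases hΨ with rfl | rfl
    · have := D.card_le_I hη (sset η τ) (fun σ h => (Finset.mem_filter.mp h).2)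
        (fun σ h => (S.mem_cls.mp (Finset.mem_filter.mp h).1).1)
      omega
    · exact D.card_le_J hη _ (fun σ h => (Finset.mem_filter.mp h).2)
  have h3 := D.small
  rw [x] at h2
  omega

theorem mC_eq_one (D : Small S) {Ψ : G → ℂ} (hΨ : Ψ = D.psiI ∨ Ψ = D.psiJ)
    {η : Cfsg.IrrCharacter G} (hη : mult Ψ η ≠ 0) {σ : S.Ir} (hσ : S.NT σ)
    (hm : S.mC η.1 σ ≠ 0) : S.mC η.1 σ = 1 := by
  obtain ⟨w, hw⟩ := D.exists_zero hΨ hη (S.cc_tp σ)
  obtain ⟨hw1, hw2⟩ := Finset.mem_filter.mp hw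
  obtain ⟨hwnt, hwtp⟩ := S.mem_cls.mp hw1
  have hr : ¬ S.Rel σ w := fun h => hm (by rw [← S.mC_rel (isChar_irr η) h, hw2])
  have := (S.pair_main (η := η) hσ hwnt hwtp.symm hr (by omega)).1
  omega

theorem single_or_small (D : Small S) {Ψ : G → ℂ} (hΨ : Ψ = D.psiI ∨ Ψ = D.psiJ)
    {η : Cfsg.IrrCharacter G} (hη : mult Ψ η ≠ 0) {σ : S.Ir} (hσ : S.NT σ)
    (hm : S.mC η.1 σ ≠ 0) :
    S.Single η σ ∨ (zset (S := S) η (S.tp σ)).card ≤ S.e := by
  classical
  by_cases hall : ∀ σ', S.NT σ' → S.mC η.1 σ' ≠ 0 → S.Rel σ σ'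
  · refine Or.inl ⟨hσ, fun τ hτ => ?_⟩
    by_cases h : S.Rel σ τ
    · rw [S.ind_eq_one h, S.mC_rel (isChar_irr η) h, D.mC_eq_one hΨ hη hσ hm]
    · rw [S.ind_eq_zero h]
      by_contra h0
      exact h (hall τ hτ h0)
  right
  push Not at hall
  obtain ⟨σ', hσ', hm', hr'⟩ := hall
  obtain ⟨w', hw'⟩ := D.exists_zero hΨ hη (S.cc_tp σ')
  obtain ⟨hw1', hm2'⟩ := Finset.mem_filter.mp hw'
  obtain ⟨hnt', htp'⟩ := S.mem_cls.mp hw1'
  rw [← S.card_orb hnt']
  refine Finset.card_le_card fun w hw => ?_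
  obtain ⟨hw1, hm2⟩ := Finset.mem_filter.mp hw
  obtain ⟨hnt, htp⟩ := S.mem_cls.mp hw1
  rw [S.mem_orb]
  by_contra hcon
  have hnr : ∀ {a b : S.Ir}, S.mC η.1 a ≠ 0 → S.mC η.1 b = 0 → ¬ S.Rel a b :=
    fun ha hb h => ha (by rw [← S.mC_rel (isChar_irr η) h, hb])
  obtain ⟨-, -, η₁, hne₁, hF₁, -, -⟩ :=
    S.pair_main (η := η) hσ hnt htp.symm (hnr hm hm2) (by omega)
  obtain ⟨-, -, η₂, hne₂, hF₂, -, -⟩ :=
    S.pair_main (η := η) hσ' hnt' htp'.symm (hnr hm' hm2') (by omega)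
  have h := S.inner_pair_pair (ρ := σ) (σ := w) hσ' hnt' htp'.symm
  rw [hF₁, hF₂, S.ind_eq_zero (fun h => hr' (S.rel_symm h)),
    S.ind_eq_zero (fun h => hnr hm hm2' (S.rel_symm h)),
    S.ind_eq_zero (hnr hm' hm2), S.ind_eq_zero hcon,
    CfsgLib.Clifford.classInner_sub_left, classInner_sub_right, classInner_sub_right,
    CfsgLib.CharBasics.classInner_self η.2,
    CfsgLib.CharBasics.classInner_irr η η₂, if_neg (Ne.symm hne₂),
    CfsgLib.CharBasics.classInner_irr η₁ η, if_neg hne₁,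
    CfsgLib.CharBasics.classInner_irr η₁ η₂] at h
  split_ifs at h <;> norm_num at h

theorem single_I (D : Small S)
    (hper : ∀ η : Cfsg.IrrCharacter G, η ≠ CfsgLib.CharBasics.oneChar →
      ∃ y : S.P, η.1 (y : G) ≠ η.1 1)
    {η : Cfsg.IrrCharacter G} (hne : η ≠ CfsgLib.CharBasics.oneChar) (hη : mult D.psiI η ≠ 0) :
    ∃ σ, S.Single η σ := by
  obtain ⟨y, hy⟩ := hper η hne
  obtain ⟨σ, hσ, hm⟩ := S.exists_nt (isChar_irr η) hy
  rcases D.single_or_small (Or.inl rfl) hη hσ (by omega) with h | h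
  · exact ⟨σ, h⟩
  · exfalso
    have h1 := card_split (S := S) η (S.cc_tp σ)
    have h2 := D.card_le_I hη (sset η (S.tp σ)) (fun τ h => (Finset.mem_filter.mp h).2)
      (fun τ h => (S.mem_cls.mp (Finset.mem_filter.mp h).1).1)
    have h3 := D.small
    rw [x] at h2
    omega

theorem single_J (D : Small S)
    (hper : ∀ η : Cfsg.IrrCharacter G, η ≠ CfsgLib.CharBasics.oneChar →
      ∃ y : S.P, η.1 (y : G) ≠ η.1 1)
    {η : Cfsg.IrrCharacter G} (hη : mult D.psiJ η ≠ 0) :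
    ∃ σ, S.Single η σ := by
  classical
  haveI := Fintype.ofFinite (Cfsg.IrrCharacter G)
  have hne : η ≠ CfsgLib.CharBasics.oneChar := fun h => hη (h ▸ D.mult_J_one)
  obtain ⟨y₀, hy₀⟩ := hper η hne
  obtain ⟨σ, hσ, hmpos⟩ := S.exists_nt (isChar_irr η) hy₀
  have hm : S.mC η.1 σ ≠ 0 := by omega
  rcases D.single_or_small (Or.inr rfl) hη hσ hm with h | hZ
  · exact ⟨σ, h⟩
  exfalso
  set β := S.tp σ with hβ
  have hβcc : S.cc β = 1 := S.cc_tp σ
  have hsplit := card_split (S := S) η hβcc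
  set Ssset := sset η β with hS
  have hSm : ∀ τ ∈ Ssset, S.mC η.1 τ ≠ 0 := fun τ h => (Finset.mem_filter.mp h).2
  have hsmall := D.small
  have h2e := D.two_e
  rw [x] at h2e
  have hSbig : Cfsg.charDegree D.χ.1 ^ 2 < 2 * Ssset.card := by omega
  have hSe : Cfsg.charDegree D.χ.1 ^ 2 < Ssset.card + S.e := by omega
  -- every constituent nontrivial on `P` lies in the class of `β`
  have hin : ∀ τ, S.NT τ → S.mC η.1 τ ≠ 0 → S.tp τ = β := by
    intro τ hτ hmτ
    by_contra hne'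
    by_cases hinv : ∀ g ∈ S.N, S.cjI g β = β
    · have hdisj : Disjoint Ssset (S.orb τ) := by
        rw [Finset.disjoint_left]
        intro a ha hb
        obtain ⟨g, hg, rfl⟩ := S.mem_orb.mp hb
        have h1 := (S.mem_cls.mp (Finset.mem_filter.mp ha).1).2
        rw [S.tp_cjI hg] at h1
        apply hne'
        have h2 := congrArg (S.cjI g⁻¹) h1
        rwa [S.cjI_inv hg, hinv g⁻¹ (S.N.inv_mem hg)] at h2
      have h := D.card_le_J hη (Ssset ∪ S.orb τ) (fun a ha => by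
        rcases Finset.mem_union.mp ha with h | h
        · exact hSm a h
        · rw [S.mC_rel (isChar_irr η) (S.mem_orb.mp h)]; exact hmτ)
      rw [Finset.card_union_of_disjoint hdisj, S.card_orb hτ, x] at h
      omega
    · push Not at hinv
      obtain ⟨g, hg, hgβ⟩ := hinv
      have hdisj : Disjoint Ssset (Ssset.image (S.cjI g)) := by
        rw [Finset.disjoint_left]
        intro a ha hb
        obtain ⟨b, hb', rfl⟩ := Finset.mem_image.mp hb
        have h1 := (S.mem_cls.mp (Finset.mem_filter.mp ha).1).2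
        rw [S.tp_cjI hg, (S.mem_cls.mp (Finset.mem_filter.mp hb').1).2] at h1
        exact hgβ h1
      have hinj : Function.Injective (S.cjI g) := fun a b h => by
        have := congrArg (S.cjI g⁻¹) h
        rwa [S.cjI_inv hg, S.cjI_inv hg] at this
      have h := D.card_le_J hη (Ssset ∪ Ssset.image (S.cjI g)) (fun a ha => by
        rcases Finset.mem_union.mp ha with h | h
        · exact hSm a h
        · obtain ⟨b, hb, rfl⟩ := Finset.mem_image.mp h
          rw [S.mC_rel (isChar_irr η) ⟨g, hg, rfl⟩]; exact hSm b hb)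
      rw [Finset.card_union_of_disjoint hdisj, Finset.card_image_of_injective _ hinj, x] at h
      omega
  have hT : ∀ τ, S.cc τ = 1 → S.mC η.1 τ = 0 := by
    intro τ hτ
    have h1 := mult_le (S := S) D.psiJ D.char_J η τ
    rw [D.mC_J_zero hτ, Nat.le_zero, mul_eq_zero] at h1
    exact h1.resolve_left hη
  have hval : ∀ τ, S.mC η.1 τ = if τ ∈ Ssset then 1 else 0 := by
    intro τ
    split_ifs with h
    · exact D.mC_eq_one (Or.inr rfl) hη (S.mem_cls.mp (Finset.mem_filter.mp h).1).1 (hSm τ h)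
    · by_contra h0
      by_cases hτ : S.NT τ
      · exact h (Finset.mem_filter.mpr ⟨S.mem_cls.mpr ⟨hτ, hin τ hτ h0⟩, h0⟩)
      · exact h0 (hT τ (not_not.mp hτ))
  have hdegtp : ∀ τ ∈ Ssset, Cfsg.charDegree τ.1 = Cfsg.charDegree β.1 := by
    intro τ hτ
    rw [← (S.mem_cls.mp (Finset.mem_filter.mp hτ).1).2, Cfsg.charDegree, Cfsg.charDegree,
      S.tp_apply]
    simp
  set y := Cfsg.charDegree η.1 with hy
  have hy1 : y = Ssset.card * Cfsg.charDegree β.1 := by
    rw [hy, ← S.mC_deg (isChar_irr η), ← smul_eq_mul, ← Finset.sum_const]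
    rw [← Finset.sum_subset (Finset.subset_univ Ssset) (fun τ _ h => by
      rw [hval τ, if_neg h, zero_mul])]
    exact Finset.sum_congr rfl fun τ hτ => by rw [hval τ, if_pos hτ, one_mul, hdegtp τ hτ]
  have htot : ∑ ζ : Cfsg.IrrCharacter G, mult D.psiJ ζ * Cfsg.charDegree ζ.1 = D.x ^ 2 := by
    rw [degree_sum D.char_J, D.deg_J]
  have hsingle : mult D.psiJ η * y ≤ D.x ^ 2 := by
    rw [← htot]
    exact Finset.single_le_sum (f := fun ζ : Cfsg.IrrCharacter G =>
      mult D.psiJ ζ * Cfsg.charDegree ζ.1) (fun _ _ => Nat.zero_le _) (Finset.mem_univ η)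
  rw [x] at hsingle htot
  have hβ1 : Cfsg.charDegree β.1 = 1 := by
    have h1 := CfsgLib.CharBasics.charDegree_pos β.2
    have h2 : 1 ≤ mult D.psiJ η := Nat.pos_of_ne_zero hη
    nlinarith
  rw [hβ1, mul_one] at hy1
  have hmult : mult D.psiJ η = 1 := by
    have h2 : 1 ≤ mult D.psiJ η := Nat.pos_of_ne_zero hη
    nlinarith
  have hothers : ∀ ζ, ζ ≠ η → mult D.psiJ ζ = 0 := by
    intro ζ hζ
    by_contra h0
    have hζ1 : ζ ≠ CfsgLib.CharBasics.oneChar := fun h => h0 (h ▸ D.mult_J_one)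
    obtain ⟨y₁, hy₁⟩ := hper ζ hζ1
    obtain ⟨τ, hτ, hmτ⟩ := S.exists_nt (isChar_irr ζ) hy₁
    have h1 : S.e ≤ Cfsg.charDegree ζ.1 := by
      rw [← S.card_orb hτ, ← S.mC_deg (isChar_irr ζ), Finset.card_eq_sum_ones]
      refine le_trans (Finset.sum_le_sum (g := fun a => S.mC ζ.1 a * Cfsg.charDegree a.1)
        fun a ha => ?_) (Finset.sum_le_sum_of_subset (Finset.subset_univ _))
      rw [S.mC_rel (isChar_irr ζ) (S.mem_orb.mp ha)]
      exact Nat.mul_pos hmτ (CfsgLib.CharBasics.charDegree_pos a.2)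
    have h2 : mult D.psiJ η * y + mult D.psiJ ζ * Cfsg.charDegree ζ.1 ≤
        Cfsg.charDegree D.χ.1 ^ 2 := by
      rw [← htot, hy, ← Finset.sum_pair (f := fun a : Cfsg.IrrCharacter G =>
        mult D.psiJ a * Cfsg.charDegree a.1) hζ.symm]
      exact Finset.sum_le_sum_of_subset (Finset.subset_univ _)
    have h3 : Cfsg.charDegree ζ.1 ≤ mult D.psiJ ζ * Cfsg.charDegree ζ.1 :=
      Nat.le_mul_of_pos_left _ (Nat.pos_of_ne_zero h0)
    rw [hmult, one_mul] at h2
    omega
  have hψ : D.psiJ = η.1 := by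
    funext g
    rw [expand D.char_J g, Finset.sum_eq_single η (fun ζ _ hζ => by rw [hothers ζ hζ]; simp)
      (fun h => absurd (Finset.mem_univ η) h), hmult, Nat.cast_one, one_mul]
  have hyx : y = Cfsg.charDegree D.χ.1 ^ 2 := by
    rw [hy, ← hψ, D.deg_J, x]
  -- on the complement `η` is constant
  have hA : ∀ c ∈ S.aF, η.1 (c : G) = (y : ℂ) := by
    intro c hc
    rw [S.mem_aF] at hc
    have h1 := expand (S.isCharacter_res (isChar_irr η)) c
    simp only [res] at h1
    have h2 : η.1 (c : G) = (y : ℂ) * β.1 c := by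
      rw [h1, ← Finset.sum_subset (Finset.subset_univ Ssset) (fun τ _ h => by
        rw [show mult (fun c : S.C => η.1 c) τ = 0 from (hval τ).trans (if_neg h)]; simp),
        Finset.sum_congr rfl (g := fun _ => β.1 c) (fun τ hτ => by
          rw [show mult (fun c : S.C => η.1 c) τ = 1 from (hval τ).trans (if_pos hτ),
            Nat.cast_one, one_mul, ← (S.mem_cls.mp (Finset.mem_filter.mp hτ).1).2, S.tp_apply,
            hc, inv_one, map_one, one_mul]), Finset.sum_const, nsmul_eq_mul, hy1]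
    have h3 : η.1 (c : G) = ((‖D.χ.1 (c : G)‖ ^ 2 : ℝ) : ℂ) := by
      rw [← hψ, psiJ, D.apply_A hc, Complex.mul_conj']; push_cast; rfl
    have h4 : β.1 (1 : S.C) = 1 := by
      rw [CfsgLib.CharBasics.apply_one (CfsgLib.CharBasics.isCharacter_of_irr β.2), hβ1,
        Nat.cast_one]
    have hlin : ∀ a b : S.C, β.1 (a * b) = β.1 a * β.1 b :=
      CfsgLib.IndFun.linChar_mul (CfsgLib.CharBasics.isCharacter_of_irr β.2) h4
    have hnorm : ‖β.1 c‖ = 1 := by
      refine Complex.norm_eq_one_of_pow_eq_one (n := Nat.card S.C) ?_ Nat.card_pos.ne'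
      have : ∀ n : ℕ, β.1 (c ^ n) = β.1 c ^ n := by
        intro n
        induction n with
        | zero => simp [h4]
        | succ n ih => rw [pow_succ, pow_succ, hlin, ih]
      rw [← this, pow_card_eq_one', h4]
    have hypos : (0 : ℝ) < y := by
      have := D.big
      have : 0 < y := by rw [hyx]; positivity
      exact_mod_cast this
    have h5 : ‖η.1 (c : G)‖ = y := by rw [h2, norm_mul, hnorm, Complex.norm_natCast, mul_one]
    rw [h3, Complex.norm_real, Real.norm_eq_abs, abs_of_nonneg (by positivity)] at h5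
    rw [h3, h5]; simp
  -- the number of missing twists is exactly `e`
  have hβone : ∀ c : S.C, β.1 c = 1 := by
    intro c
    have h1 : β.1 c = β.1 (S.incl (S.proj c)⁻¹ * c) := by
      rw [S.apply_incl_mul, hβcc]; simp
    have hA1 : S.proj (S.incl (S.proj c)⁻¹ * c) = 1 := by
      rw [map_mul, S.proj_incl, inv_mul_cancel]
    have h2 := hA _ (S.mem_aF.mpr hA1)
    have hypos : (y : ℂ) ≠ 0 := Nat.cast_ne_zero.mpr (by
      have := D.big
      rw [hyx]; positivity)
    rw [h1]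
    have h3 := expand (S.isCharacter_res (isChar_irr η)) (S.incl (S.proj c)⁻¹ * c)
    simp only [res] at h3
    rw [h2, ← Finset.sum_subset (Finset.subset_univ Ssset) (fun τ _ h => by
      rw [show mult (fun c : S.C => η.1 c) τ = 0 from (hval τ).trans (if_neg h)]; simp),
      Finset.sum_congr rfl (g := fun _ => β.1 (S.incl (S.proj c)⁻¹ * c)) (fun τ hτ => by
        rw [show mult (fun c : S.C => η.1 c) τ = 1 from (hval τ).trans (if_pos hτ),
          Nat.cast_one, one_mul, ← (S.mem_cls.mp (Finset.mem_filter.mp hτ).1).2, S.tp_apply,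
          hA1, inv_one, map_one, one_mul]), Finset.sum_const, nsmul_eq_mul, ← hy1] at h3
    exact mul_left_cancel₀ hypos (by rw [mul_one]; exact h3.symm)
  obtain ⟨w, hw⟩ := D.exists_zero (Or.inr rfl) hη hβcc
  obtain ⟨hw1, hw2⟩ := Finset.mem_filter.mp hw
  obtain ⟨hwnt, hwtp⟩ := S.mem_cls.mp hw1
  have hge : S.e ≤ (zset (S := S) η β).card := by
    rw [← S.card_orb hwnt]
    refine Finset.card_le_card fun a ha => ?_
    obtain ⟨g, hg, rfl⟩ := S.mem_orb.mp ha
    refine Finset.mem_filter.mpr ⟨S.mem_cls.mpr ⟨S.nt_cjI hg hwnt, ?_⟩, ?_⟩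
    · rw [S.tp_cjI hg, hwtp]
      exact Subtype.ext (funext fun c => by rw [S.cjI_apply hg, hβone, hβone])
    · rw [S.mC_rel (isChar_irr η) ⟨g, hg, rfl⟩, hw2]
  have hq : Nat.card S.P = y + 1 + S.e := by
    have hpos : 0 < Nat.card S.P := Nat.card_pos
    omega
  have hsq : ∑ τ : S.Ir, S.mC η.1 τ * S.mC η.1 τ = y := by
    rw [hy1, Finset.card_eq_sum_ones, ← Finset.sum_subset (Finset.subset_univ Ssset)
      (fun τ _ h => by rw [hval τ, if_neg h, mul_zero])]
    exact Finset.sum_congr rfl fun τ hτ => by rw [hval τ, if_pos hτ]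
  have hb := S.mean_bound η hne hy.symm hA hsq (hT _ cc_one_C) hq
  rw [hyx] at hb
  have he := D.e_le
  have hbig := D.big
  rw [x] at he
  nlinarith

theorem false_of_small (D : Small S)
    (hper : ∀ η : Cfsg.IrrCharacter G, η ≠ CfsgLib.CharBasics.oneChar →
      ∃ y : S.P, η.1 (y : G) ≠ η.1 1) : False := by
  classical
  haveI := Fintype.ofFinite (Cfsg.IrrCharacter G)
  set one : Cfsg.IrrCharacter G := CfsgLib.CharBasics.oneChar with hone
  set one' : S.Ir := CfsgLib.CharBasics.oneChar with hone'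
  have hq := D.hq
  set U : Finset (Cfsg.IrrCharacter G) := Finset.univ.filter (fun η => ∃ σ, S.Single η σ) with hU
  set T : Finset S.Ir := Finset.univ.filter (fun σ => ¬ S.NT σ) with hTdef
  set NS : Finset S.Ir := Finset.univ.filter (fun σ => S.NT σ) with hNS
  set Dv : Cfsg.IrrCharacter G → ℤ := fun η => ∑ σ ∈ T, D.phi σ * S.mC η.1 σ with hDv
  have hmemT : ∀ {σ}, σ ∈ T ↔ S.cc σ = 1 := fun {σ} => by simp [hTdef, NT]
  have hphiT : ∀ σ ∈ T, D.phi σ = S.mC D.psiI σ := fun σ h => D.phi_of_trivial (hmemT.mp h)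
  have hDnn : ∀ η, 0 ≤ Dv η := fun η => Finset.sum_nonneg fun σ h => by
    rw [hphiT σ h]; positivity
  have honeU : one ∉ U := by
    intro h
    obtain ⟨σ, hσ⟩ := (Finset.mem_filter.mp h).2
    refine hσ.1 (S.mC_one σ ?_)
    have := hσ.2 σ hσ.1
    rw [S.ind_eq_one (S.rel_refl σ)] at this
    show S.mC one.1 σ ≠ 0
    omega
  have hoff : ∀ η, η ≠ one → η ∉ U → mult D.psiI η = 0 ∧ mult D.psiJ η = 0 := by
    intro η h1 h2
    refine ⟨by_contra fun h => h2 ?_, by_contra fun h => h2 ?_⟩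
    · exact Finset.mem_filter.mpr ⟨Finset.mem_univ _, D.single_I hper h1 h⟩
    · exact Finset.mem_filter.mpr ⟨Finset.mem_univ _, D.single_J hper h⟩
  have hsingle : ∀ {η σ}, S.Single η σ →
      (S.e : ℤ) * D.coef η = Dv η + (S.e : ℤ) * D.phi σ := by
    intro η σ h
    rw [D.sum_phi_mC, ← Finset.sum_filter_add_sum_filter_not Finset.univ (fun τ => ¬ S.NT τ)]
    refine congrArg₂ (· + ·) rfl ?_
    rw [Finset.sum_congr rfl (g := fun τ => (S.ind σ τ : ℤ) * D.phi σ) (fun τ hτ => ?_),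
      ← Finset.sum_mul]
    · congr 1
      rw [← Nat.cast_sum, ← S.sum_ind h.1]
      congr 1
      refine Finset.sum_subset (Finset.subset_univ _) (fun τ _ hτ => ?_)
      refine S.ind_eq_zero fun hr => hτ ?_
      simpa using S.rel_nt hr h.1
    · have hnt : S.NT τ := by simpa using (Finset.mem_filter.mp hτ).2
      rw [h.2 τ hnt]
      by_cases hr : S.Rel σ τ
      · rw [S.ind_eq_one hr, D.phi_rel hr, Nat.cast_one, one_mul, mul_one]
      · rw [S.ind_eq_zero hr]; simp
  have hDJ : ∀ η, mult D.psiJ η ≠ 0 → Dv η = 0 := by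
    intro η h
    refine Finset.sum_eq_zero fun σ hσ => ?_
    have h1 := mult_le (S := S) D.psiJ D.char_J η σ
    rw [D.mC_J_zero (hmemT.mp hσ), Nat.le_zero, mul_eq_zero] at h1
    rw [h1.resolve_left h]; simp
  -- the norms
  have hDone : Dv one = S.e := by
    rw [hDv]
    have h1 : one' ∈ T := hmemT.mpr cc_one_C
    show ∑ σ ∈ T, D.phi σ * S.mC one.1 σ = S.e
    rw [Finset.sum_eq_single one']
    · rw [hphiT _ h1, hone', D.mC_I_one]
      have : S.mC one.1 one' = 1 := by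
        show mult ((one' : S.C → ℂ)) one' = 1
        rw [mult_irr, if_pos rfl]
      rw [← hone', this]; simp
    · intro σ _ hσ
      have : S.mC one.1 σ = 0 := by
        show mult ((one' : S.C → ℂ)) σ = 0
        rw [mult_irr, if_neg (Ne.symm hσ)]
      rw [this]; simp
    · exact fun h => absurd h1 h
  have hGamma : ∑ σ ∈ T, D.phi σ * D.phi σ =
      (S.e : ℤ) + ∑ η ∈ U, (mult D.psiI η : ℤ) * Dv η := by
    have h1 : ∑ σ ∈ T, D.phi σ * D.phi σ =
        ∑ η : Cfsg.IrrCharacter G, (mult D.psiI η : ℤ) * Dv η := by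
      simp only [hDv, Finset.mul_sum]
      rw [Finset.sum_comm]
      refine Finset.sum_congr rfl fun σ hσ => ?_
      nth_rewrite 2 [hphiT σ hσ]
      rw [S.mC_decomp D.char_I σ, Nat.cast_sum, Finset.mul_sum]
      exact Finset.sum_congr rfl fun η _ => by push_cast; ring
    rw [h1, ← Finset.sum_subset (Finset.subset_univ (insert one U)), Finset.sum_insert honeU,
      hDone, hone, D.mult_I_one, Nat.cast_one, one_mul]
    intro η _ hη
    rw [Finset.mem_insert, not_or] at hη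
    rw [(hoff η hη.1 hη.2).1]; simp
  have hcoef : ∑ η : Cfsg.IrrCharacter G, D.coef η * D.coef η =
      1 + ∑ η ∈ U, D.coef η * D.coef η := by
    rw [← Finset.sum_subset (Finset.subset_univ (insert one U)), Finset.sum_insert honeU]
    · rw [coef, hone, D.mult_I_one, D.mult_J_one]; simp
    · intro η _ hη
      rw [Finset.mem_insert, not_or] at hη
      rw [coef, (hoff η hη.1 hη.2).1, (hoff η hη.1 hη.2).2]; simp
  have hnorm : (S.e : ℤ) * ∑ η ∈ U, D.coef η * D.coef η =
      ∑ η ∈ U, (mult D.psiI η : ℤ) * Dv η + ∑ σ ∈ NS, D.phi σ * D.phi σ := by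
    have h1 := D.sum_phi_sq
    rw [hcoef, ← Finset.sum_filter_add_sum_filter_not Finset.univ (fun τ => ¬ S.NT τ), hGamma] at h1
    have h2 : (Finset.univ.filter fun τ => ¬ ¬ S.NT τ) = NS := by
      ext τ; simp [hNS]
    rw [h2] at h1
    linarith
  haveI : Nonempty S.Ir := ⟨one'⟩
  choose! rep hrep using fun η (h : η ∈ U) => (Finset.mem_filter.mp h).2
  have horb : ∀ η ∈ U, ∀ σ, S.Single η σ ↔ S.Rel (rep η) σ := fun η hη σ =>
    ⟨fun h => S.single_member (hrep η hη) h, fun h => S.single_rel (hrep η hη) h⟩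
  have hsumrel : ∀ η ∈ U, ∀ F : ℤ, ∑ σ ∈ NS, (if S.Single η σ then F else 0) = (S.e : ℤ) * F := by
    intro η hη F
    rw [← Finset.sum_filter, Finset.sum_const, nsmul_eq_mul]
    congr 2
    rw [← S.card_orb (hrep η hη).1]
    congr 1
    ext σ
    rw [Finset.mem_filter, S.mem_orb, horb η hη σ, hNS, Finset.mem_filter]
    exact ⟨fun h => h.2, fun h => ⟨⟨Finset.mem_univ _, S.rel_nt h (hrep η hη).1⟩, h⟩⟩
  have hpar : (S.e : ℤ) * ∑ η ∈ U, D.phi (rep η) * D.phi (rep η) ≤
      ∑ σ ∈ NS, D.phi σ * D.phi σ := by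
    rw [Finset.mul_sum, Finset.sum_congr rfl (fun η hη => (hsumrel η hη _).symm), Finset.sum_comm]
    refine Finset.sum_le_sum fun σ _ => ?_
    rw [← Finset.sum_filter]
    have hle : (U.filter fun η => S.Single η σ).card ≤ 1 := Finset.card_le_one.mpr fun a ha b hb =>
      (S.single_unique hq (Finset.mem_filter.mp ha).2 (Finset.mem_filter.mp hb).2).symm
    rw [Finset.sum_congr rfl (g := fun _ => D.phi σ * D.phi σ) (fun η hη => by
      rw [D.phi_rel ((horb η (Finset.mem_filter.mp hη).1 σ).mp (Finset.mem_filter.mp hη).2)]),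
      Finset.sum_const, nsmul_eq_mul]
    have h0 : (0 : ℤ) ≤ D.phi σ * D.phi σ := mul_self_nonneg _
    have h1 : ((U.filter fun η => S.Single η σ).card : ℤ) ≤ 1 := by exact_mod_cast hle
    nlinarith
  have hterm : ∀ η ∈ U, (S.e : ℤ) * (D.coef η * D.coef η - D.phi (rep η) * D.phi (rep η))
      - (mult D.psiI η : ℤ) * Dv η = Dv η * D.phi (rep η) := by
    intro η hη
    have h := hsingle (hrep η hη)
    by_cases hJ : mult D.psiJ η = 0
    · have ha : D.coef η = mult D.psiI η := by rw [coef, hJ]; simp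
      rw [← ha]
      linear_combination (D.coef η + D.phi (rep η)) * h
    · rw [hDJ η hJ] at h ⊢
      linear_combination (D.coef η + D.phi (rep η)) * h
  have hK : 0 ≤ ∑ η ∈ U, Dv η * D.phi (rep η) := by
    rw [← Finset.sum_congr rfl hterm, Finset.sum_sub_distrib, ← Finset.mul_sum,
      Finset.sum_sub_distrib, mul_sub]
    linarith
  -- the weights on the orbits
  set g : S.Ir → ℤ := fun σ => ∑ η ∈ U, if S.Single η σ then Dv η else 0 with hg
  have hgnn : ∀ σ, 0 ≤ g σ := fun σ => Finset.sum_nonneg fun η _ => by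
    split_ifs
    exacts [hDnn η, le_rfl]
  have hgeq : ∀ {η σ}, S.Single η σ → g σ = Dv η := by
    intro η σ h
    show ∑ η' ∈ U, (if S.Single η' σ then Dv η' else 0) = Dv η
    rw [Finset.sum_eq_single η, if_pos h]
    · intro η' _ hne
      rw [if_neg fun h' => hne (S.single_unique hq h h')]
    · intro hn
      exact absurd (Finset.mem_filter.mpr ⟨Finset.mem_univ _, σ, h⟩) hn
  have hgtw : ∀ σ σ', S.NT σ → S.NT σ' → S.tp σ = S.tp σ' → g σ = g σ' := by
    intro σ σ' hσ hσ' htp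
    by_cases hex : ∃ η, S.Single η σ
    · obtain ⟨η, hη⟩ := hex
      obtain ⟨η', hη', -, hmT⟩ := S.single_twist hη hσ' htp
      rw [hgeq hη, hgeq hη']
      exact Finset.sum_congr rfl fun τ hτ => by rw [hmT τ (Finset.mem_filter.mp hτ).2]
    · have hex' : ¬ ∃ η, S.Single η σ' := by
        rintro ⟨η, hη⟩
        obtain ⟨η', hη', -, -⟩ := S.single_twist hη hσ htp.symm
        exact hex ⟨η', hη'⟩
      push Not at hex hex'
      simp [hg, hex, hex']
  have hK' : 0 ≤ ∑ σ ∈ NS, g σ * D.phi σ := by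
    have : ∑ σ ∈ NS, g σ * D.phi σ = (S.e : ℤ) * ∑ η ∈ U, Dv η * D.phi (rep η) := by
      rw [Finset.mul_sum, Finset.sum_congr rfl (fun η hη => (hsumrel η hη _).symm), Finset.sum_comm]
      refine Finset.sum_congr rfl fun σ _ => ?_
      show (∑ η ∈ U, if S.Single η σ then Dv η else 0) * D.phi σ = _
      rw [Finset.sum_mul]
      refine Finset.sum_congr rfl fun η hη => ?_
      by_cases hs : S.Single η σ
      · rw [if_pos hs, if_pos hs, D.phi_rel ((horb η hη σ).mp hs)]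
      · rw [if_neg hs, if_neg hs, zero_mul]
    rw [this]; exact mul_nonneg (Nat.cast_nonneg _) hK
  rw [← Finset.sum_fiberwise_of_maps_to (g := fun σ => S.tp σ) (t := T)
    (fun σ _ => hmemT.mpr (S.cc_tp σ))] at hK'
  have hfib : ∀ τ, (NS.filter fun σ => S.tp σ = τ) = S.cls τ := fun τ => by
    ext σ; simp [hNS, cls]
  have hinner : ∀ τ ∈ T, ∀ σ₀ ∈ S.cls τ,
      (∑ σ ∈ NS.filter (fun σ => S.tp σ = τ), g σ * D.phi σ) = -(g σ₀ * D.phi τ) := by
    intro τ hτ σ₀ hσ₀
    rw [hfib, Finset.sum_congr rfl (g := fun σ => g σ₀ * D.phi σ) (fun σ hσ => by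
      rw [hgtw σ σ₀ (S.mem_cls.mp hσ).1 (S.mem_cls.mp hσ₀).1
        ((S.mem_cls.mp hσ).2.trans (S.mem_cls.mp hσ₀).2.symm)]),
      ← Finset.mul_sum, D.sum_phi_cls (hmemT.mp hτ), mul_neg]
  have hnonpos : ∀ τ ∈ T, (∑ σ ∈ NS.filter (fun σ => S.tp σ = τ), g σ * D.phi σ) ≤ 0 := by
    intro τ hτ
    rcases (S.cls τ).eq_empty_or_nonempty with he | ⟨σ₀, hσ₀⟩
    · rw [hfib, he]; simp
    · rw [hinner τ hτ σ₀ hσ₀, hphiT τ hτ]
      exact neg_nonpos.mpr (mul_nonneg (hgnn σ₀) (Nat.cast_nonneg _))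
  have hzero : ∀ τ ∈ T, ∀ σ₀ ∈ S.cls τ, g σ₀ * D.phi τ = 0 := by
    intro τ hτ σ₀ hσ₀
    have := (Finset.sum_eq_zero_iff_of_nonpos hnonpos).mp
      (le_antisymm (Finset.sum_nonpos hnonpos) hK') τ hτ
    rw [hinner τ hτ σ₀ hσ₀] at this
    linarith
  -- all the `Dv` vanish
  have hD0 : ∀ η ∈ U, Dv η = 0 := by
    intro η hη
    by_contra hne
    have hpos : 0 < Dv η := lt_of_le_of_ne (hDnn η) (Ne.symm hne)
    set σ := rep η
    have hσ := hrep η hη
    set τ := S.tp σ
    have hτT : τ ∈ T := hmemT.mpr (S.cc_tp σ)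
    have hσcls : σ ∈ S.cls τ := S.mem_cls.mpr ⟨hσ.1, rfl⟩
    have hphi0 : D.phi τ = 0 := by
      have := hzero τ hτT σ hσcls
      rw [hgeq hσ] at this
      exact (mul_eq_zero.mp this).resolve_left hne
    have hchoice : ∀ σ' : S.Ir, ∃ η' : Cfsg.IrrCharacter G, σ' ∈ S.cls τ →
        S.Single η' σ' ∧ Cfsg.charDegree η'.1 = Cfsg.charDegree η.1 ∧ Dv η' = Dv η := by
      intro σ'
      by_cases h : σ' ∈ S.cls τ
      · obtain ⟨η', h1, h2, h3⟩ := S.single_twist hσ (S.mem_cls.mp h).1 (S.mem_cls.mp h).2.symm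
        exact ⟨η', fun _ => ⟨h1, h2, Finset.sum_congr rfl fun t ht => by
          rw [h3 t (Finset.mem_filter.mp ht).2]⟩⟩
      · exact ⟨η, fun h' => absurd h' h⟩
    choose f hf using hchoice
    have hsum : (S.e : ℤ) * ∑ σ' ∈ S.cls τ, D.coef (f σ') =
        ((S.cls τ).card : ℤ) * Dv η := by
      rw [Finset.mul_sum, Finset.sum_congr rfl (fun σ' h => hsingle (hf σ' h).1),
        Finset.sum_add_distrib, ← Finset.mul_sum, D.sum_phi_cls (hmemT.mp hτT), hphi0,
        Finset.sum_congr rfl (fun σ' h => (hf σ' h).2.2), Finset.sum_const, nsmul_eq_mul]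
      simp
    have hDe : (S.e : ℤ) ≤ Dv η := by
      have h1 := hsingle hσ
      have he : (0 : ℤ) < S.e := by exact_mod_cast S.e_pos
      have h2 : Dv η = (S.e : ℤ) * (D.coef η - D.phi σ) := by linear_combination -h1
      rw [h2] at hpos ⊢
      have h3 : 1 ≤ D.coef η - D.phi σ := by nlinarith
      nlinarith
    have hcard : ((S.cls τ).card : ℤ) ≤ ∑ σ' ∈ S.cls τ, D.coef (f σ') := by
      have he : (0 : ℤ) < S.e := by exact_mod_cast S.e_pos
      refine le_of_mul_le_mul_left ?_ he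
      rw [hsum]
      nlinarith
    have hcoefI : ∀ σ' ∈ S.cls τ, D.coef (f σ') = mult D.psiI (f σ') := by
      intro σ' h
      have hJ : mult D.psiJ (f σ') = 0 := by
        by_contra h0
        have := hDJ _ h0
        rw [(hf σ' h).2.2] at this
        exact hne this
      rw [coef, hJ]; simp
    rw [Finset.sum_congr rfl hcoefI] at hcard
    have hcardN : (S.cls τ).card ≤ ∑ σ' ∈ S.cls τ, mult D.psiI (f σ') := by exact_mod_cast hcard
    set y := Cfsg.charDegree η.1
    have hy : S.e + 1 ≤ y := by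
      obtain ⟨t, ht, htne⟩ := Finset.exists_ne_zero_of_sum_ne_zero hne
      have hmt : 0 < S.mC η.1 t := Nat.pos_of_ne_zero fun h0 => htne (by simp [h0])
      have hnot : t ∉ S.orb σ := fun h =>
        (Finset.mem_filter.mp ht).2 (S.rel_nt (S.mem_orb.mp h) hσ.1)
      show S.e + 1 ≤ Cfsg.charDegree η.1
      rw [← S.mC_deg (isChar_irr η)]
      refine le_trans ?_ (Finset.sum_le_sum_of_subset (Finset.subset_univ (insert t (S.orb σ))))
      rw [Finset.sum_insert hnot, add_comm]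
      refine Nat.add_le_add (Nat.mul_pos hmt (CfsgLib.CharBasics.charDegree_pos t.2)) ?_
      rw [← S.card_orb hσ.1, Finset.card_eq_sum_ones]
      refine Finset.sum_le_sum fun a ha => ?_
      rw [hσ.2 a (S.rel_nt (S.mem_orb.mp ha) hσ.1), S.ind_eq_one (S.mem_orb.mp ha), one_mul]
      exact CfsgLib.CharBasics.charDegree_pos a.2
    have hbound : ∑ σ' ∈ S.cls τ, mult D.psiI (f σ') * y ≤ S.e * D.x ^ 2 := by
      rw [← Finset.sum_fiberwise_of_maps_to (g := f) (t := Finset.univ)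
        (fun _ _ => Finset.mem_univ _), ← D.deg_I, ← degree_sum D.char_I, Finset.mul_sum]
      refine Finset.sum_le_sum fun η' _ => ?_
      rcases ((S.cls τ).filter fun a => f a = η').eq_empty_or_nonempty with he | ⟨a, ha⟩
      · rw [he]; simp
      obtain ⟨ha1, ha2⟩ := Finset.mem_filter.mp ha
      have hy' : Cfsg.charDegree η'.1 = y := ha2 ▸ (hf a ha1).2.1
      rw [Finset.sum_congr rfl (g := fun _ => mult D.psiI η' * Cfsg.charDegree η'.1)
        (fun b hb => by rw [(Finset.mem_filter.mp hb).2, hy']), Finset.sum_const, smul_eq_mul]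
      refine Nat.mul_le_mul_right _ ?_
      rw [← S.card_orb (S.mem_cls.mp ha1).1]
      refine Finset.card_le_card fun b hb => ?_
      obtain ⟨hb1, hb2⟩ := Finset.mem_filter.mp hb
      rw [S.mem_orb]
      refine S.single_member (η := η') ?_ ?_
      · rw [← ha2]; exact (hf a ha1).1
      · rw [← hb2]; exact (hf b hb1).1
    rw [← Finset.sum_mul] at hbound
    have hqq := S.card_cls (hmemT.mp hτT)
    have hsm := D.small
    have hb2 : (S.cls τ).card * (S.e + 1) ≤ S.e * D.x ^ 2 :=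
      le_trans (Nat.mul_le_mul hcardN hy) hbound
    have hlt : D.x ^ 2 < (S.cls τ).card := by rw [x]; omega
    nlinarith
  -- the final contradiction
  have hkill : ∀ η ∈ U, mult D.psiI η ≠ 0 → ∀ t ∈ T, S.mC η.1 t = 0 := by
    intro η hη hm t ht
    by_contra h0
    have h1 := (Finset.sum_eq_zero_iff_of_nonneg (s := T)
      (f := fun σ => D.phi σ * (S.mC η.1 σ : ℤ))
      (fun σ hσ => by rw [hphiT σ hσ]; positivity)).mp (hD0 η hη) t ht
    rw [hphiT t ht] at h1
    have h2 : (S.mC D.psiI t : ℤ) ≠ 0 := by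
      have := mult_le (S := S) D.psiI D.char_I η t
      have h3 := Nat.mul_pos (Nat.pos_of_ne_zero hm) (Nat.pos_of_ne_zero h0)
      exact_mod_cast (show S.mC D.psiI t ≠ 0 by omega)
    rcases mul_eq_zero.mp h1 with h | h
    · exact h2 h
    · exact h0 (by exact_mod_cast h)
  have hTval : ∀ t ∈ T, S.mC D.psiI t = if t = one' then 1 else 0 := by
    intro t ht
    rw [S.mC_decomp D.char_I t, Finset.sum_eq_single one, hone, D.mult_I_one, one_mul]
    · show mult ((one' : S.C → ℂ)) t = _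
      rw [mult_irr]
      simp [eq_comm]
    · intro η _ hη
      by_cases hU' : η ∈ U
      · by_cases hm : mult D.psiI η = 0
        · rw [hm, zero_mul]
        · rw [hkill η hU' hm t ht, mul_zero]
      · rw [(hoff η hη hU').1, zero_mul]
    · exact fun h => absurd (Finset.mem_univ _) h
  have he1 : S.e = 1 := by
    have h := hTval one' (hmemT.mpr cc_one_C)
    rw [hone', D.mC_I_one, if_pos rfl] at h
    exact h
  have horb1 : S.orb D.ξ = {D.ξ} := by
    refine (Finset.eq_of_subset_of_card_le ?_ ?_).symm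
    · simpa using S.mem_orb.mpr (S.rel_refl D.ξ)
    · rw [S.card_orb D.nt_ξ, he1, Finset.card_singleton]
  have hchiy : ∀ y : S.P, D.χ.1 (y : G) = (S.cc D.ξ y : ℂ) * D.ξ.1 1 := by
    intro y
    have h := expand (S.isCharacter_res (isChar_irr D.χ)) (S.incl y)
    simp only [res, coe_incl] at h
    rw [h, Finset.sum_eq_single D.ξ]
    · rw [show mult (fun c : S.C => D.χ.1 c) D.ξ = 1 from
        (D.res_χ _).trans (S.ind_eq_one (S.rel_refl _))]
      have := S.apply_incl_mul D.ξ y 1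
      rw [mul_one] at this
      rw [this]; simp
    · intro σ _ hσ
      rw [show mult (fun c : S.C => D.χ.1 c) σ = 0 from
        (D.res_χ σ).trans (S.ind_eq_zero fun hr => hσ
          (Finset.mem_singleton.mp (horb1 ▸ S.mem_orb.mpr hr)))]
      simp
    · exact fun h => absurd (Finset.mem_univ _) h
  have hpsi : ∀ y : S.P, D.psiI (y : G) = (D.x : ℂ) ^ 2 := by
    intro y
    have hn : ‖(S.cc D.ξ y : ℂ)‖ = 1 := by
      refine Complex.norm_eq_one_of_pow_eq_one (n := Nat.card S.P) ?_ Nat.card_pos.ne'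
      rw [← Units.val_pow_eq_pow_val, ← map_pow, pow_card_eq_one', map_one, Units.val_one]
    rw [psiI, hchiy, CfsgLib.CharBasics.apply_one (CfsgLib.CharBasics.isCharacter_of_irr D.ξ.2),
      Complex.mul_conj', norm_mul, hn, one_mul, Complex.norm_natCast, x, D.deg_χ, he1, one_mul]
    push_cast; rfl
  have hLHS : ∑ y : S.P, D.psiI (y : G) = (Nat.card S.P : ℂ) := by
    have hex : ∀ y : S.P, D.psiI (y : G) =
        ∑ σ : S.Ir, (S.mC D.psiI σ : ℂ) * ((S.cc σ y : ℂ) * σ.1 1) := by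
      intro y
      have h := expand (S.isCharacter_res D.char_I) (S.incl y)
      simp only [res, coe_incl] at h
      rw [h]
      refine Finset.sum_congr rfl fun σ _ => ?_
      have h2 := S.apply_incl_mul σ y 1
      rw [mul_one] at h2
      rw [h2]; rfl
    simp only [hex]
    rw [Finset.sum_comm, Finset.sum_eq_single one']
    · simp only [hone', D.mC_I_one, he1, cc_one_C, CfsgLib.CharBasics.oneChar_apply]
      simp [Nat.card_eq_fintype_card]
    · intro σ _ hσ
      by_cases hσT : σ ∈ T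
      · rw [hTval σ hσT, if_neg hσ]; simp
      · have : S.cc σ ≠ 1 := fun h => hσT (hmemT.mpr h)
        rw [← Finset.mul_sum, ← Finset.sum_mul, S.sum_hom_apply this]; simp
    · exact fun h => absurd (Finset.mem_univ _) h
  rw [Finset.sum_congr rfl (fun y _ => hpsi y), Finset.sum_const, Finset.card_univ,
    ← Nat.card_eq_fintype_card, nsmul_eq_mul] at hLHS
  have h1 : (D.x : ℂ) ^ 2 = 1 := by
    have hP : (Nat.card S.P : ℂ) ≠ 0 := Nat.cast_ne_zero.mpr Nat.card_pos.ne'
    exact mul_left_cancel₀ hP (by rw [mul_one]; exact hLHS)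
  have h2 : D.x ^ 2 = 1 := by exact_mod_cast h1
  have := D.big
  rw [x] at h2
  nlinarith

end Small

end Setting

end CfsgLib.StrongSylow
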