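import Mathlib
import Cfsg.Agent.Clifford.StrongSylow.Core

/-!
Small degrees and uniform centralizers: the alternative for irreducible characters, and
normality of the Sylow subgroup for faithful characters.
-/

set_option linter.unusedSectionVars false

namespace CfsgLib.StrongSylow

universe u

/-- Either `P` lies in a proper normal subgroup, or the character is linear and there is a normal
`p`-complement. -/
theorem alternative {G : Type u} [Group G] [Fintype G] {p : ℕ} [Fact p.Prime] (P : Sylow p G)
    (hstar : ∀ x ∈ (P : Subgroup G), x ≠ 1 →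
      Subgroup.centralizer ({x} : Set G) = Subgroup.centralizer ((P : Subgroup G) : Set G))
    (χ : Cfsg.IrrCharacter G) (h1 : χ ≠ CfsgLib.CharBasics.oneChar)
    (hd : Cfsg.charDegree χ.1 ^ 2 + 1 < Nat.card (P : Subgroup G)) :
    (∃ K : Subgroup G, K.Normal ∧ K ≠ ⊤ ∧ (P : Subgroup G) ≤ K) ∨
      ((∃ M : Subgroup G, M.Normal ∧ M.index = Nat.card (P : Subgroup G)) ∧
        Cfsg.charDegree χ.1 = 1) := by
  classical
  by_cases hK : ∃ K : Subgroup G, K.Normal ∧ K ≠ ⊤ ∧ (P : Subgroup G) ≤ K
  · exact Or.inl hK
  refine Or.inr ?_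
  obtain ⟨S, hS⟩ := exists_setting P hstar
  rw [← hS] at hd
  have hper : ∀ η : Cfsg.IrrCharacter G, η ≠ CfsgLib.CharBasics.oneChar →
      ∃ y : S.P, η.1 (y : G) ≠ η.1 1 := by
    intro η hη
    by_contra hc
    push Not at hc
    have hη' := CfsgLib.CharBasics.isCharacter_of_irr η.2
    have htop : CfsgLib.CharBasics.charKer η.1 hη' = ⊤ := by
      by_contra hne
      refine hK ⟨_, CfsgLib.CharBasics.charKer_normal hη', hne, fun y hy => ?_⟩
      rw [CfsgLib.CharBasics.mem_charKer]
      exact hc ⟨y, hS ▸ hy⟩
    have hconst : ∀ g, η.1 g = η.1 1 := fun g =>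
      (CfsgLib.CharBasics.mem_charKer hη' g).mp (htop ▸ Subgroup.mem_top g)
    have := CfsgLib.CharBasics.sum_irr_eq_zero η.2 (fun h => hη (Subtype.ext h))
    rw [Finset.sum_congr rfl (fun g _ => hconst g), Finset.sum_const, Finset.card_univ,
      nsmul_eq_mul, mul_eq_zero] at this
    rcases this with h | h
    · have h' : Fintype.card G = 0 := by exact_mod_cast h
      exact Fintype.card_ne_zero h'
    · exact CfsgLib.CharBasics.apply_one_ne_zero η.2 h
  obtain ⟨y, hy⟩ := hper χ h1
  have hx : Cfsg.charDegree χ.1 = 1 := by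
    by_contra hne
    have hbig : 2 ≤ Cfsg.charDegree χ.1 := by
      have := CfsgLib.CharBasics.charDegree_pos χ.2
      omega
    obtain ⟨D⟩ := S.exists_small χ hy hbig hd
    exact D.false_of_small hper
  refine ⟨?_, hx⟩
  obtain ⟨ξ, -, -, hdeg⟩ := S.small_restrict χ hy (by omega)
  rw [hx] at hdeg
  have he : S.e = 1 := Nat.eq_one_of_mul_eq_one_right hdeg.symm
  have hNC := S.N_le_C he
  rw [Setting.N, Setting.C, hS] at hNC
  refine ⟨(MonoidHom.transferSylow P hNC).ker, inferInstance, ?_⟩
  exact (MonoidHom.ker_transferSylow_isComplement' P hNC).symm.index_eq_card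

/-- A faithful character of small degree forces the Sylow subgroup to be normal. -/
theorem normal_of_faithful {p : ℕ} [Fact p.Prime] :
    ∀ (m : ℕ) (G : Type u) [Group G] [Finite G], Nat.card G = m → ∀ (P : Sylow p G),
      (∀ x ∈ (P : Subgroup G), x ≠ 1 →
        Subgroup.centralizer ({x} : Set G) = Subgroup.centralizer ((P : Subgroup G) : Set G)) →
      ∀ χ : G → ℂ, Cfsg.IsCharacter G χ → (∀ g : G, χ g = χ 1 → g = 1) →
      Cfsg.charDegree χ ^ 2 + 1 < Nat.card (P : Subgroup G) → (P : Subgroup G).Normal := by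
  intro m
  induction m using Nat.strong_induction_on with
  | _ m ih =>
    intro G _ _ hm P hstar χ hχ hfaith hd
    classical
    haveI := Fintype.ofFinite G
    by_cases hK : ∃ K : Subgroup G, K.Normal ∧ K ≠ ⊤ ∧ (P : Subgroup G) ≤ K
    · obtain ⟨K, hKn, hKt, hPK⟩ := hK
      haveI := hKn
      haveI : Finite K := inferInstance
      let Q : Sylow p K := P.subtype hPK
      have hQ : ∀ k : K, k ∈ (Q : Subgroup K) ↔ (k : G) ∈ (P : Subgroup G) := fun k => by
        show k ∈ (P : Subgroup G).subgroupOf K ↔ _
        exact Subgroup.mem_subgroupOf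
      have hcard : Nat.card (Q : Subgroup K) = Nat.card (P : Subgroup G) :=
        Nat.card_congr (Subgroup.subgroupOfEquivOfLe hPK).toEquiv
      have hlt : Nat.card K < m := by
        rw [← hm]
        exact lt_of_le_of_ne (Subgroup.card_le_card_group K)
          (fun h => hKt (Subgroup.eq_top_of_card_eq K h))
      have hstarQ : ∀ x ∈ (Q : Subgroup K), x ≠ 1 →
          Subgroup.centralizer ({x} : Set K) =
            Subgroup.centralizer ((Q : Subgroup K) : Set K) := by
        intro x hx hx1
        refine le_antisymm (fun c hc => ?_) (Subgroup.centralizer_le (Set.singleton_subset_iff.mpr hx))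
        rw [Subgroup.mem_centralizer_iff] at hc ⊢
        intro w hw
        have hcG : (c : G) ∈ Subgroup.centralizer ({(x : G)} : Set G) := by
          rw [Subgroup.mem_centralizer_iff]
          intro v hv
          rw [Set.mem_singleton_iff] at hv
          rw [hv]
          exact congrArg Subtype.val (hc x rfl)
        rw [hstar _ ((hQ x).mp hx) (fun h => hx1 (Subtype.ext h)),
          Subgroup.mem_centralizer_iff] at hcG
        exact Subtype.ext (hcG _ ((hQ w).mp hw))
      have hχK := CfsgLib.CharBasics.isCharacter_restrict hχ K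
      have hdeg : Cfsg.charDegree (fun k : K => χ k) = Cfsg.charDegree χ := by
        simp [Cfsg.charDegree]
      have hnQ : (Q : Subgroup K).Normal := ih _ hlt K rfl Q hstarQ (fun k => χ k) hχK
        (fun k hk => Subtype.ext (hfaith k hk)) (by rw [hdeg, hcard]; exact hd)
      refine ⟨fun y hy g => ?_⟩
      have hgy : g * y * g⁻¹ ∈ K := hKn.conj_mem y (hPK hy) g
      have hp : IsPGroup p (Subgroup.zpowers (⟨g * y * g⁻¹, hgy⟩ : K)) := by
        obtain ⟨k, hk⟩ := P.isPGroup' ⟨y, hy⟩
        have hk' : y ^ p ^ k = 1 := congrArg Subtype.val hk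
        intro ⟨z, hz⟩
        obtain ⟨i, rfl⟩ := Subgroup.mem_zpowers_iff.mp hz
        refine ⟨k, Subtype.ext ?_⟩
        show ((⟨g * y * g⁻¹, hgy⟩ : K) ^ i) ^ p ^ k = 1
        rw [← zpow_natCast, ← zpow_mul, mul_comm, zpow_mul, zpow_natCast]
        have : (⟨g * y * g⁻¹, hgy⟩ : K) ^ p ^ k = 1 := Subtype.ext (by
          rw [SubmonoidClass.coe_pow, conj_pow, hk']; simp)
        rw [this, one_zpow]
      obtain ⟨R, hR⟩ := hp.exists_le_sylow
      haveI := Sylow.unique_of_normal Q hnQ
      have hRQ : R = Q := Subsingleton.elim R Q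
      subst hRQ
      exact (hQ _).mp (hR (Subgroup.mem_zpowers _))
    · haveI := Fintype.ofFinite (Cfsg.IrrCharacter G)
      have hlin : ∀ η : Cfsg.IrrCharacter G, mult χ η ≠ 0 → Cfsg.charDegree η.1 = 1 := by
        intro η hη
        by_cases h1 : η = CfsgLib.CharBasics.oneChar
        · subst h1
          have := CfsgLib.CharBasics.apply_one
            (CfsgLib.CharBasics.isCharacter_of_irr (CfsgLib.CharBasics.oneChar (G := G)).2)
          rw [CfsgLib.CharBasics.oneChar_apply] at this
          exact_mod_cast this.symm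
        have hle : Cfsg.charDegree η.1 ≤ Cfsg.charDegree χ := by
          rw [← degree_sum hχ]
          refine le_trans (Nat.le_mul_of_pos_left _ (Nat.pos_of_ne_zero hη)) ?_
          exact Finset.single_le_sum (f := fun ζ : Cfsg.IrrCharacter G =>
            mult χ ζ * Cfsg.charDegree ζ.1) (fun _ _ => Nat.zero_le _) (Finset.mem_univ η)
        have hd' : Cfsg.charDegree η.1 ^ 2 + 1 < Nat.card (P : Subgroup G) :=
          lt_of_le_of_lt (by gcongr) hd
        rcases alternative P hstar η h1 hd' with h | h
        · exact absurd h hK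
        · exact h.2
      have hcomm : ∀ a b : G, χ (a * b * a⁻¹ * b⁻¹) = χ 1 := by
        intro a b
        rw [expand hχ, expand hχ]
        refine Finset.sum_congr rfl fun η _ => ?_
        by_cases hη : mult χ η = 0
        · rw [hη]; simp
        have h1 : η.1 1 = 1 := by
          rw [CfsgLib.CharBasics.apply_one (CfsgLib.CharBasics.isCharacter_of_irr η.2), hlin η hη,
            Nat.cast_one]
        have hm := CfsgLib.IndFun.linChar_mul (CfsgLib.CharBasics.isCharacter_of_irr η.2) h1
        congr 1
        have e1 : η.1 a * η.1 a⁻¹ = 1 := by rw [← hm, mul_inv_cancel, h1]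
        have e2 : η.1 b * η.1 b⁻¹ = 1 := by rw [← hm, mul_inv_cancel, h1]
        rw [hm, hm, hm, h1]
        calc η.1 a * η.1 b * η.1 a⁻¹ * η.1 b⁻¹
            = (η.1 a * η.1 a⁻¹) * (η.1 b * η.1 b⁻¹) := by ring
          _ = 1 := by rw [e1, e2, one_mul]
      have hab : ∀ a b : G, a * b = b * a := fun a b => by
        have h := hfaith _ (hcomm a b)
        calc a * b = (a * b * a⁻¹ * b⁻¹) * (b * a) := by group
          _ = b * a := by rw [h, one_mul]
      exact ⟨fun y hy g => by rw [hab g y, mul_inv_cancel_right]; exact hy⟩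

end CfsgLib.StrongSylow
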